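import Mathlib
import Cfsg.Agent.Lib.SmallGroups2
import Cfsg.Agent.Lib.SmallGroups3
import Cfsg.Agent.Lib.Small168
import Cfsg.Agent.Lib.TwoLocal
import Cfsg.Agent.Lib.TwoLocal2
import Cfsg.Agent.Lib.BurnsidePQ
import Cfsg.Agent.Lib.ClassicalSmall
import Cfsg.Agent.S0985
import Cfsg.Agent.S0989
import Cfsg.Agent.S0990
import Cfsg.Agent.S0999

/-!
# Further numerical tests excluding orders of simple groups
-/

set_option autoImplicit false

namespace Cfsg.Agent.H87Ord

open Subgroup Cfsg.Agent.Lib.SmallGroups2 Cfsg.Agent.Lib.SmallGroups3 Cfsg.Agent.Lib.Small168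
open Cfsg.Agent.Lib.TwoLocal Cfsg.Agent.Lib.TwoLocal2

variable {G : Type*} [Group G] [Finite G]

/-- If there are exactly `p + 1` Sylow `p`-subgroups, of order `p`, then the normalizer is small. -/
theorem two_mul_normalizer_dvd [IsSimpleGroup G] (hG : ¬ IsMulCommutative G) {p : ℕ} [Fact p.Prime]
    (hp2 : p ≠ 2) (P : Sylow p G) (hP : Nat.card (P : Subgroup G) = p)
    (hn : Nat.card (Sylow p G) = p + 1) :
    2 * Nat.card (normalizer ((P : Subgroup G) : Set G)) ∣ p * (p - 1) := by
  classical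
  have hp : p.Prime := Fact.out
  haveI : Fintype (Sylow p G) := Fintype.ofFinite _
  have hcardα : Fintype.card (Sylow p G) = p + 1 := by rw [← Nat.card_eq_fintype_card, hn]
  let φ : G →* Equiv.Perm (Sylow p G) := MulAction.toPermHom G (Sylow p G)
  have hpG : p ∣ Nat.card G := by
    rw [← hP]; exact Subgroup.card_subgroup_dvd_card _
  have hφ : Function.Injective φ := by
    rw [injective_iff_map_eq_one]
    intro g hg
    apply eq_one_of_forall_smul_sylow hG hpG (y := g)
    intro Q
    have := congrArg (fun σ : Equiv.Perm (Sylow p G) => σ Q) hg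
    simpa [φ] using this
  -- the image of P
  let Q : Subgroup (Equiv.Perm (Sylow p G)) := (P : Subgroup G).map φ
  have hQc : Nat.card Q = p := by
    have h0 : Nat.card Q = Nat.card (P : Subgroup G) :=
      Nat.card_congr (Subgroup.equivMapOfInjective _ φ hφ).toEquiv.symm
    rw [h0, hP]
  have hQp : IsPGroup p Q := by
    rw [IsPGroup.iff_card]
    exact ⟨1, by rw [hQc, pow_one]⟩
  obtain ⟨S, hS⟩ := hQp.exists_le_sylow
  have hcardPerm : Nat.card (Equiv.Perm (Sylow p G)) = (p + 1).factorial := by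
    rw [Nat.card_eq_fintype_card, Fintype.card_perm, hcardα]
  have hnsq : ¬ p ^ 2 ∣ (p + 1).factorial := by
    intro hd
    have h1 : (p + 1).factorial = (p + 1) * (p * (p - 1).factorial) := by
      rw [Nat.factorial_succ]
      congr 1
      obtain ⟨q, rfl⟩ : ∃ q, p = q + 1 := ⟨p - 1, by have := hp.pos; omega⟩
      simp [Nat.factorial_succ]
    rw [h1, pow_two] at hd
    have h2 : p ∣ (p + 1) * (p - 1).factorial := by
      have h3 : p * p ∣ p * ((p + 1) * (p - 1).factorial) := by
        have : (p + 1) * (p * (p - 1).factorial) = p * ((p + 1) * (p - 1).factorial) := by ring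
        rwa [this] at hd
      exact Nat.dvd_of_mul_dvd_mul_left hp.pos h3
    rcases (Nat.Prime.dvd_mul hp).1 h2 with h4 | h4
    · have : p ∣ 1 := (Nat.dvd_add_right (dvd_refl p)).1 h4
      exact hp.one_lt.ne' (Nat.dvd_one.1 this)
    · rw [hp.dvd_factorial] at h4
      have := hp.pos
      omega
  have hScard : Nat.card (S : Subgroup (Equiv.Perm (Sylow p G))) = p := by
    obtain ⟨k, hk⟩ := IsPGroup.iff_card.1 S.isPGroup'
    have h1 : Nat.card (S : Subgroup (Equiv.Perm (Sylow p G))) ∣ (p + 1).factorial := by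
      rw [← hcardPerm]; exact Subgroup.card_subgroup_dvd_card _
    rw [hk] at h1 ⊢
    have hk2 : k < 2 := by
      by_contra hk2
      exact hnsq (dvd_trans (pow_dvd_pow p (by omega)) h1)
    have hk0 : k ≠ 0 := by
      rintro rfl
      have h2 : Nat.card Q ∣ Nat.card (S : Subgroup (Equiv.Perm (Sylow p G))) :=
        Subgroup.card_dvd_of_le hS
      rw [hk, hQc, pow_zero] at h2
      exact hp.one_lt.ne' (Nat.dvd_one.1 h2)
    have : k = 1 := by omega
    rw [this, pow_one]
  have hQS : Q = (S : Subgroup (Equiv.Perm (Sylow p G))) :=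
    Subgroup.eq_of_le_of_card_ge hS (by rw [hScard, hQc])
  have hα2 : 2 ≤ Fintype.card (Sylow p G) := by rw [hcardα]; have := hp.two_le; omega
  obtain ⟨-, h90⟩ := Cfsg.Agent.S0990.result hα2 p hp2 S
  have h89 := Cfsg.Agent.S0989.result p (Or.inr hcardα) S
  rw [h89] at h90
  rw [← h90]
  -- embed the normalizer
  apply mul_dvd_mul_left
  have heven : ∀ g : G, φ g ∈ alternatingGroup (Sylow p G) := by
    intro g
    rw [Equiv.Perm.mem_alternatingGroup]
    exact sign_toPermHom_eq_one hG g
  let ψ : normalizer ((P : Subgroup G) : Set G) →* normalizer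
      (((S : Subgroup (Equiv.Perm (Sylow p G))).subgroupOf (alternatingGroup (Sylow p G)) :
        Subgroup ↥(alternatingGroup (Sylow p G))) : Set ↥(alternatingGroup (Sylow p G))) :=
    { toFun := fun g => ⟨⟨φ g.1, heven g.1⟩, by
        rw [Subgroup.mem_normalizer_iff]
        rintro ⟨x, hx⟩
        rw [Subgroup.mem_subgroupOf, Subgroup.mem_subgroupOf, ← hQS]
        have hg := g.2
        rw [Subgroup.mem_normalizer_iff] at hg
        simp only [Subgroup.coe_mul, InvMemClass.coe_inv]
        constructor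
        · rintro ⟨y, hy, rfl⟩
          exact ⟨g.1 * y * g.1⁻¹, (hg y).1 hy, by simp⟩
        · rintro ⟨y, hy, hxy⟩
          refine ⟨g.1⁻¹ * y * g.1, ?_, ?_⟩
          · apply (hg _).2
            have : g.1 * (g.1⁻¹ * y * g.1) * g.1⁻¹ = y := by group
            rw [this]
            exact hy
          · have h3 : φ y = φ g.1 * x * (φ g.1)⁻¹ := hxy
            simp only [map_mul, map_inv, h3]
            group⟩
      map_one' := by
        apply Subtype.ext; apply Subtype.ext
        simp
      map_mul' := by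
        intro a b
        apply Subtype.ext; apply Subtype.ext
        simp }
  apply Subgroup.card_dvd_of_injective ψ
  intro a b hab
  apply Subtype.ext
  apply hφ
  have := congrArg (fun z => ((z.1 : ↥(alternatingGroup (Sylow p G))) : Equiv.Perm (Sylow p G))) hab
  exact this

/-- Order-free test for a normalizer. -/
theorem succ_test [IsSimpleGroup G] (hG : ¬ IsMulCommutative G) {p m k : ℕ} [Fact p.Prime]
    (hp2 : p ≠ 2) (h : Nat.card G = p * m) (hm : ¬ p ∣ m)
    (hn : Nat.card (Sylow p G) = p + 1) (hk : (p + 1) * k = m) : 2 * k ∣ p - 1 := by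
  have hp : p.Prime := Fact.out
  obtain ⟨P⟩ : Nonempty (Sylow p G) := inferInstance
  have h' : Nat.card G = p ^ 1 * m := by rw [h, pow_one]
  have hP : Nat.card (P : Subgroup G) = p := by rw [sylow_card_of_card_eq h' hm P, pow_one]
  have h1 := two_mul_normalizer_dvd hG hp2 P hP hn
  have h2 := card_normalizer_mul_card_sylow P
  rw [h, hn, ← hk] at h2
  have h3 : Nat.card (normalizer ((P : Subgroup G) : Set G)) = p * k := by
    apply Nat.eq_of_mul_eq_mul_right (Nat.succ_pos p)
    rw [h2, Nat.succ_eq_add_one]; ring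
  rw [h3] at h1
  have h4 : p * (2 * k) ∣ p * (p - 1) := by
    have : 2 * (p * k) = p * (2 * k) := by ring
    rwa [this] at h1
  exact Nat.dvd_of_mul_dvd_mul_left hp.pos h4

/-- A subgroup of index `p` of a Sylow `p`-subgroup: normalizer data for intersections. -/
theorem le_normalizer_inf_of_index {p a : ℕ} [Fact p.Prime] {P R : Subgroup G}
    (hP : Nat.card P = p ^ a) (ha : a ≠ 0) (hidx : (R.subgroupOf P).index = p) :
    P ≤ normalizer ((P ⊓ R : Subgroup G) : Set G) := by
  have hp : p.Prime := Fact.out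
  have hnorm : (R.subgroupOf P).Normal := by
    apply Subgroup.normal_of_index_eq_minFac_card
    rw [hidx, hP, Nat.Prime.pow_minFac hp ha]
  intro x hx
  rw [mem_normalizer_iff]
  intro y
  constructor
  · rintro ⟨hy1, hy2⟩
    have h1 : (⟨x, hx⟩ * ⟨y, hy1⟩ * (⟨x, hx⟩ : P)⁻¹ : P) ∈ R.subgroupOf P :=
      hnorm.conj_mem ⟨y, hy1⟩ (Subgroup.mem_subgroupOf.2 hy2) ⟨x, hx⟩
    exact ⟨P.mul_mem (P.mul_mem hx hy1) (P.inv_mem hx), Subgroup.mem_subgroupOf.1 h1⟩
  · rintro ⟨hy1, hy2⟩
    have hy : y ∈ P := by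
      have h3 := P.mul_mem (P.mul_mem (P.inv_mem hx) hy1) hx
      have h4 : x⁻¹ * (x * y * x⁻¹) * x = y := by group
      rwa [h4] at h3
    have h1 : ((⟨x, hx⟩ : P)⁻¹ * (⟨x * y * x⁻¹, hy1⟩ : P) * ((⟨x, hx⟩ : P)⁻¹)⁻¹ : P) ∈ R.subgroupOf P :=
      hnorm.conj_mem ⟨x * y * x⁻¹, hy1⟩ (Subgroup.mem_subgroupOf.2 hy2) (⟨x, hx⟩ : P)⁻¹
    have h2 := Subgroup.mem_subgroupOf.1 h1
    have h5 : (((⟨x, hx⟩ : P)⁻¹ * (⟨x * y * x⁻¹, hy1⟩ : P) * ((⟨x, hx⟩ : P)⁻¹)⁻¹ : P) : G) = y := by
      simp only [Subgroup.coe_mul, InvMemClass.coe_inv, inv_inv]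
      group
    rw [h5] at h2
    exact ⟨hy, h2⟩

/-- Test for orders divisible by `p ^ 2`: if the number of Sylow subgroups is not `1` mod `p ^ 2`, then
a proper subgroup contains two Sylow subgroups. -/
theorem sylow_index_p_test [IsSimpleGroup G] (hG : ¬ IsMulCommutative G) {p a m : ℕ} [Fact p.Prime]
    (h : Nat.card G = p ^ a * m) (hm : ¬ p ∣ m) (ha : 2 ≤ a)
    (hn : ¬ Nat.card (Sylow p G) ≡ 1 [MOD p ^ 2]) :
    (tameCandidates (Nat.card G) p m).Nonempty := by
  have hp : p.Prime := Fact.out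
  obtain ⟨P, R, hne, hidx⟩ := Cfsg.Agent.S0985.result p 2 hn
  have hcP : Nat.card (P : Subgroup G) = p ^ a := sylow_card_of_card_eq h hm P
  have hcR : Nat.card (R : Subgroup G) = p ^ a := sylow_card_of_card_eq h hm R
  have hpow1 : p ^ (2 - 1) = p := by norm_num
  rw [hpow1] at hidx
  have hPR : ¬ (P : Subgroup G) ≤ R := by
    intro hle
    apply hne
    exact Sylow.ext (Subgroup.eq_of_le_of_card_ge hle (by rw [hcP, hcR]))
  have hRP : ¬ (R : Subgroup G) ≤ P := by
    intro hle
    apply hne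
    exact (Sylow.ext (Subgroup.eq_of_le_of_card_ge hle (by rw [hcP, hcR]))).symm
  have h1 : ((R : Subgroup G).subgroupOf (P : Subgroup G)).index = p := by
    have hd : ((R : Subgroup G).subgroupOf (P : Subgroup G)).index ∣ p ^ a := by
      rw [← hcP]
      exact Subgroup.index_dvd_card _
    obtain ⟨k, hk, hk'⟩ := (Nat.dvd_prime_pow hp).1 hd
    have hne1 : ((R : Subgroup G).subgroupOf (P : Subgroup G)).index ≠ 1 := by
      intro h1'
      rw [Subgroup.index_eq_one] at h1'
      apply hPR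
      intro x hx
      have : (⟨x, hx⟩ : (P : Subgroup G)) ∈ (R : Subgroup G).subgroupOf (P : Subgroup G) := by
        rw [h1']; trivial
      exact Subgroup.mem_subgroupOf.1 this
    rw [hk'] at hne1 hidx ⊢
    have hk0 : k ≠ 0 := by
      rintro rfl
      simp at hne1
    have hk1 : k ≤ 1 := by
      by_contra hk1
      have : p ^ 2 ≤ p ^ k := Nat.pow_le_pow_right hp.pos (by omega)
      have h3 : p < p ^ 2 := by nlinarith [hp.two_le]
      omega
    have : k = 1 := by omega
    rw [this, pow_one]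
  -- the order of the intersection
  have hc1 : Nat.card ((P : Subgroup G) ⊓ (R : Subgroup G) : Subgroup G) * p = p ^ a := by
    have h2 := Subgroup.card_mul_index ((R : Subgroup G).subgroupOf (P : Subgroup G))
    rw [h1, hcP] at h2
    have h3 : Nat.card ((R : Subgroup G).subgroupOf (P : Subgroup G)) =
        Nat.card ((P : Subgroup G) ⊓ (R : Subgroup G) : Subgroup G) := by
      rw [← Subgroup.inf_subgroupOf_left]
      exact Nat.card_congr (Subgroup.subgroupOfEquivOfLe inf_le_left).toEquiv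
    rwa [h3] at h2
  have h2 : ((P : Subgroup G).subgroupOf (R : Subgroup G)).index = p := by
    have h4 := Subgroup.card_mul_index ((P : Subgroup G).subgroupOf (R : Subgroup G))
    have h3 : Nat.card ((P : Subgroup G).subgroupOf (R : Subgroup G)) =
        Nat.card ((P : Subgroup G) ⊓ (R : Subgroup G) : Subgroup G) := by
      rw [inf_comm, ← Subgroup.inf_subgroupOf_left]
      exact Nat.card_congr (Subgroup.subgroupOfEquivOfLe inf_le_left).toEquiv
    rw [h3, hcR, ← hc1] at h4
    have h5 : 0 < Nat.card ((P : Subgroup G) ⊓ (R : Subgroup G) : Subgroup G) := Nat.card_pos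
    exact (Nat.eq_of_mul_eq_mul_left h5 h4)
  have hPn := le_normalizer_inf_of_index hcP (by omega) h1
  have hRn := le_normalizer_inf_of_index hcR (by omega) h2
  rw [inf_comm] at hRn
  set D : Subgroup G := (P : Subgroup G) ⊓ (R : Subgroup G) with hD
  have hDne : D ≠ ⊥ := by
    intro hb
    rw [hb] at hc1
    simp only [Subgroup.card_bot, one_mul] at hc1
    have h3 : p < p ^ a := by
      calc p < p ^ 2 := by nlinarith [hp.two_le]
        _ ≤ p ^ a := Nat.pow_le_pow_right hp.pos ha
    omega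
  have hM : normalizer (D : Set G) ≠ ⊤ := by
    intro htop
    have hnorm : D.Normal := normalizer_eq_top_iff.1 htop
    rcases hnorm.eq_bot_or_eq_top with hb | ht
    · exact hDne hb
    · apply hPR
      have : (P : Subgroup G) ⊓ (R : Subgroup G) = ⊤ := ht
      rw [eq_top_iff] at this
      exact le_trans le_top (le_trans this inf_le_right)
  exact ⟨_, index_mem_tameCandidates hG h hm _ hM P R hne hPn hRn⟩

/-- Exclusion by a large prime divisor, from the Brauer-Reynolds theorem. -/
theorem big_prime_test [IsSimpleGroup G] (hG : ¬ IsMulCommutative G) {p : ℕ} (hp : p.Prime)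
    (hd : p ∣ Nat.card G) (hbig : Nat.card G < p ^ 3)
    (h1 : Nat.gcd 2 (p - 1) * Nat.card G ≠ (p + 1) * p * (p - 1))
    (h2 : Nat.gcd 2 (p - 1 - 1) * Nat.card G ≠ (p - 1 + 1) * (p - 1) * (p - 1 - 1)) : False := by
  have hcyc : ¬ IsCyclic G := by
    intro hc
    apply hG
    exact ⟨⟨fun a b => by
      obtain ⟨g, hg⟩ := hc.exists_generator
      obtain ⟨i, rfl⟩ := Subgroup.mem_zpowers_iff.1 (hg a)
      obtain ⟨j, rfl⟩ := Subgroup.mem_zpowers_iff.1 (hg b)
      rw [← zpow_add, ← zpow_add, add_comm]⟩⟩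
  rcases Cfsg.Agent.S0999.result hcyc p hp hd hbig with ⟨F, _, _, hF, -, ⟨e⟩⟩ | ⟨m, F, _, _, hF, hpm, -, ⟨e⟩⟩
  · apply h1
    have h3 := Cfsg.Agent.Lib.ClassicalSmall.card_PSL2 (F := F)
    rw [hF, ← Nat.card_congr e.toEquiv] at h3
    exact h3
  · apply h2
    have h3 := Cfsg.Agent.Lib.ClassicalSmall.card_PSL2 (F := F)
    have h4 : Fintype.card F = p - 1 := by rw [hF, hpm]; simp
    rw [h4, ← Nat.card_congr e.toEquiv] at h3
    exact h3

end Cfsg.Agent.H87Ord
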