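import Mathlib
import Cfsg.Agent.H87Ord.Core
import Cfsg.Agent.Lib.TwoLocal3

/-!
# Orders 1008 and 1080
-/

set_option autoImplicit false

namespace Cfsg.Agent.H87Ord

open Subgroup Cfsg.Agent.Lib.SmallGroups2 Cfsg.Agent.Lib.SmallGroups3 Cfsg.Agent.Lib.Small168
open Cfsg.Agent.Lib.TwoLocal Cfsg.Agent.Lib.TwoLocal2 Cfsg.Agent.Lib.TwoLocal3

variable {G : Type*} [Group G] [Finite G]

/-- Conjugate elements have the same number of fixed points. -/
theorem card_fixedBy_isConj {X : Type*} [MulAction G X] {a b : G} (h : IsConj a b) :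
    Nat.card (MulAction.fixedBy X a) = Nat.card (MulAction.fixedBy X b) := by
  obtain ⟨c, rfl⟩ := isConj_iff.1 h
  refine Nat.card_congr ⟨fun x => ⟨c • x.1, ?_⟩, fun x => ⟨c⁻¹ • x.1, ?_⟩, ?_, ?_⟩
  · have hx : a • x.1 = x.1 := x.2
    show (c * a * c⁻¹) • c • x.1 = c • x.1
    rw [smul_smul, mul_assoc, mul_assoc, inv_mul_cancel, mul_one, mul_smul, hx]
  · have hx : (c * a * c⁻¹) • x.1 = x.1 := x.2
    show a • c⁻¹ • x.1 = c⁻¹ • x.1
    have : a • c⁻¹ • x.1 = c⁻¹ • ((c * a * c⁻¹) • x.1) := by
      rw [smul_smul, smul_smul]
      congr 1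
      group
    rw [this, hx]
  · intro x
    apply Subtype.ext
    simp
  · intro x
    apply Subtype.ext
    simp

/-- The data of the unique involution of the centralizer of a Sylow subgroup of prime order. -/
theorem involution_fix_data [IsSimpleGroup G] (hG : ¬ IsMulCommutative G) {p : ℕ} [Fact p.Prime]
    (hp2 : p ≠ 2) (hpG : p ∣ Nat.card G) (P : Sylow p G) (hP : Nat.card (P : Subgroup G) = p)
    (hC : Nat.card (centralizer ((P : Subgroup G) : Set G)) = 2 * p) :
    ∃ f, f % p = 1 ∧ f % 4 = Nat.card (Sylow p G) % 4 ∧ f < Nat.card (Sylow p G) ∧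
      ((f - 1) * p + 1 > Nat.card (Sylow p G) →
        f * Nat.card (normalizer ((P : Subgroup G) : Set G)) ∣ Nat.card G) := by
  have hp : p.Prime := Fact.out
  haveI : Fact (Nat.Prime 2) := ⟨Nat.prime_two⟩
  obtain ⟨t', ht'⟩ := exists_prime_orderOf_dvd_card' (G := centralizer ((P : Subgroup G) : Set G)) 2
    (by rw [hC]; exact Dvd.intro p rfl)
  obtain ⟨t, htC⟩ := t'
  have ho : orderOf t = 2 := by rw [← ht']; exact (Subgroup.orderOf_mk t htC).symm
  have ht2 : t ^ 2 = 1 := by rw [← ho]; exact pow_orderOf_eq_one t
  have ht1 : t ≠ 1 := by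
    intro h0
    rw [h0, orderOf_one] at ho
    omega
  obtain ⟨f1, f2, f3, f4⟩ := fixedBy_facts hG hpG P htC ho
  refine ⟨_, f1, f3 rfl, f4, fun hbig => ?_⟩
  have hPC := le_centralizer_of_card_prime hp hP
  have hN : normalizer ((P : Subgroup G) : Set G) ≥ centralizer ((P : Subgroup G) : Set G) :=
    Subgroup.centralizer_le_normalizer _
  have hone : Nat.card {w : G // IsConj t w ∧ w ∈ normalizer ((P : Subgroup G) : Set G)} = 1 := by
    rw [Nat.card_eq_one_iff_unique]
    refine ⟨⟨?_⟩, ⟨⟨t, IsConj.refl t, hN htC⟩⟩⟩
    rintro ⟨w, hw1, hw2⟩ ⟨w', hw1', hw2'⟩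
    have key : ∀ w : G, IsConj t w → w ∈ normalizer ((P : Subgroup G) : Set G) → w = t := by
      intro w hw1 hw2
      have hwC : w ∈ centralizer ((P : Subgroup G) : Set G) := by
        by_contra hwC
        have := card_fixedBy_sylow_mul_le P hP hw2 hwC
        rw [← card_fixedBy_isConj hw1] at this
        omega
      obtain ⟨c, rfl⟩ := isConj_iff.1 hw1
      refine eq_of_sq_eq_one_of_card_centralizer hp hp2 hP hPC hC htC ht2 ht1 hwC ?_ ?_
      · rw [conj_pow, ht2]; group
      · intro h0
        apply ht1
        have : t = c⁻¹ * (c * t * c⁻¹) * c := by group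
        rw [this, h0]; group
    apply Subtype.ext
    exact (key w hw1 hw2).trans (key w' hw1' hw2').symm
  have hform := card_fixedBy_mul_normalizer P t
  rw [hone, one_mul] at hform
  rw [hform]
  exact Subgroup.card_subgroup_dvd_card _

/-- Index of the centralizer of a Sylow subgroup of prime order in its normalizer. -/
theorem exists_relIndex {p : ℕ} [Fact p.Prime] (P : Sylow p G) (hP : Nat.card (P : Subgroup G) = p) :
    ∃ e, e ∣ p - 1 ∧
      Nat.card (centralizer ((P : Subgroup G) : Set G)) * e =
        Nat.card (normalizer ((P : Subgroup G) : Set G)) := by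
  refine ⟨_, relIndex_dvd_of_prime_card P hP, ?_⟩
  exact card_mul_relIndex (Subgroup.centralizer_le_normalizer _)

theorem normalizer_eq_centralizer_false [IsSimpleGroup G] (hG : ¬ IsMulCommutative G) {p : ℕ} [Fact p.Prime]
    (hpG : p ∣ Nat.card G) (P : Sylow p G)
    (h : Nat.card (centralizer ((P : Subgroup G) : Set G)) =
      Nat.card (normalizer ((P : Subgroup G) : Set G))) : False := by
  apply not_normalizer_le_centralizer hG hpG P
  have := Subgroup.eq_of_le_of_card_ge (Subgroup.centralizer_le_normalizer ((P : Subgroup G) : Set G)) h.ge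
  rw [← this]

theorem card_ne_1008 [IsSimpleGroup G] (hG : ¬ IsMulCommutative G) : Nat.card G ≠ 1008 := by
  intro h
  haveI : Fact (Nat.Prime 7) := ⟨by norm_num⟩
  have h7 : Nat.card G = 7 * 144 := by rw [h]
  have hm : ¬ 7 ∣ 144 := by norm_num
  have hpG : 7 ∣ Nat.card G := ⟨144, h7⟩
  have hmem := card_sylow_mem_candidates hG h7 hm
  have hc : sylowCandidates 7 144 = {8, 36} := by decide +kernel
  rw [hc] at hmem
  simp only [Finset.mem_insert, Finset.mem_singleton] at hmem
  rcases hmem with hn | hn
  · have := succ_test (k := 18) hG (by norm_num) h7 hm hn (by norm_num)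
    revert this
    decide
  · obtain ⟨P⟩ : Nonempty (Sylow 7 G) := inferInstance
    have hP : Nat.card (P : Subgroup G) = 7 := by
      rw [sylow_card_of_card_eq (a := 1) (m := 144) (by rw [h7, pow_one]) hm P, pow_one]
    have hN : Nat.card (normalizer ((P : Subgroup G) : Set G)) = 28 := by
      have h1 := card_normalizer_mul_card_sylow P
      rw [h, hn] at h1
      omega
    obtain ⟨e, he1, he2⟩ := exists_relIndex P hP
    rw [hN] at he2
    have he3 : e ≠ 1 := by
      rintro rfl
      apply normalizer_eq_centralizer_false hG hpG P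
      rw [hN]
      omega
    have he4 : e ∈ Nat.divisors 6 := Nat.mem_divisors.2 ⟨he1, by norm_num⟩
    have he5 : e ∣ 28 := ⟨_, by rw [mul_comm]; exact he2.symm⟩
    have he6 : ∀ e ∈ Nat.divisors 6, e ≠ 1 → e ∣ 28 → e = 2 := by decide +kernel
    obtain rfl := he6 e he4 he3 he5
    have hC : Nat.card (centralizer ((P : Subgroup G) : Set G)) = 2 * 7 := by omega
    obtain ⟨f, f1, f2, f3, f4⟩ := involution_fix_data hG (by norm_num) hpG P hP hC
    rw [hn] at f2 f3 f4
    rw [hN, h] at f4
    have : f = 8 := by omega
    subst this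
    have := f4 (by norm_num)
    revert this
    decide

/-- Two elements of prime order `q` of a group with a unique Sylow `q`-subgroup of order `q`. -/
theorem mem_zpowers_of_unique_sylow {A : Type*} [Group A] [Finite A] {q : ℕ} [Fact q.Prime]
    (hA : ¬ q ^ 2 ∣ Nat.card A) (h1 : Nat.card (Sylow q A) = 1) {a b : A} (ha : orderOf a = q)
    (hb : orderOf b = q) : b ∈ zpowers a := by
  have hq : q.Prime := Fact.out
  have key : ∀ c : A, orderOf c = q → ∃ S : Sylow q A, (S : Subgroup A) = zpowers c := by
    intro c hc
    have hpg : IsPGroup q (zpowers c) := by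
      rw [IsPGroup.iff_card, Nat.card_zpowers, hc]
      exact ⟨1, by simp⟩
    obtain ⟨S, hS⟩ := hpg.exists_le_sylow
    refine ⟨S, (Subgroup.eq_of_le_of_card_ge hS ?_).symm⟩
    rw [Nat.card_zpowers, hc]
    obtain ⟨k, hk⟩ := IsPGroup.iff_card.1 S.isPGroup'
    have h2 : Nat.card (S : Subgroup A) ∣ Nat.card A := Subgroup.card_subgroup_dvd_card _
    rw [hk] at h2 ⊢
    have hk2 : k < 2 := by
      by_contra hk2
      exact hA (dvd_trans (pow_dvd_pow q (by omega)) h2)
    interval_cases k
    · simp; exact hq.one_le
    · simp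
  obtain ⟨S, hS⟩ := key a ha
  obtain ⟨S', hS'⟩ := key b hb
  have hs : Subsingleton (Sylow q A) := (Nat.card_eq_one_iff_unique.1 h1).1
  have : S' = S := Subsingleton.elim _ _
  rw [this, hS] at hS'
  rw [hS']
  exact mem_zpowers b

theorem card_ne_1080 [IsSimpleGroup G] (hG : ¬ IsMulCommutative G) : Nat.card G ≠ 1080 := by
  intro h
  haveI : Fact (Nat.Prime 5) := ⟨by norm_num⟩
  haveI : Fact (Nat.Prime 3) := ⟨by norm_num⟩
  have h5 : Nat.card G = 5 * 216 := by rw [h]
  have hm : ¬ 5 ∣ 216 := by norm_num
  have hpG : 5 ∣ Nat.card G := ⟨216, h5⟩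
  have hp2 : ¬ 5 ^ 2 ∣ Nat.card G := by rw [h]; norm_num
  have hmem := card_sylow_mem_candidates hG h5 hm
  have hc : sylowCandidates 5 216 = {6, 36} := by decide +kernel
  rw [hc] at hmem
  simp only [Finset.mem_insert, Finset.mem_singleton] at hmem
  rcases hmem with hn | hn
  · have := succ_test (k := 36) hG (by norm_num) h5 hm hn (by norm_num)
    revert this
    decide
  · obtain ⟨P⟩ : Nonempty (Sylow 5 G) := inferInstance
    have hP : Nat.card (P : Subgroup G) = 5 := by
      rw [sylow_card_of_card_eq (a := 1) (m := 216) (by rw [h5, pow_one]) hm P, pow_one]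
    have hN : Nat.card (normalizer ((P : Subgroup G) : Set G)) = 30 := by
      have h1 := card_normalizer_mul_card_sylow P
      rw [h, hn] at h1
      omega
    obtain ⟨e, he1, he2⟩ := exists_relIndex P hP
    rw [hN] at he2
    have he3 : e ≠ 1 := by
      rintro rfl
      apply normalizer_eq_centralizer_false hG hpG P
      rw [hN]
      omega
    have he4 : e ∈ Nat.divisors 4 := Nat.mem_divisors.2 ⟨he1, by norm_num⟩
    have he5 : e ∣ 30 := ⟨_, by rw [mul_comm]; exact he2.symm⟩
    have he6 : ∀ e ∈ Nat.divisors 4, e ≠ 1 → e ∣ 30 → e = 2 := by decide +kernel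
    obtain rfl := he6 e he4 he3 he5
    have hC : Nat.card (centralizer ((P : Subgroup G) : Set G)) = 15 := by omega
    set CP := centralizer ((P : Subgroup G) : Set G) with hCP
    set NP := normalizer ((P : Subgroup G) : Set G) with hNP
    have hCN : CP ≤ NP := Subgroup.centralizer_le_normalizer _
    have hPC : (P : Subgroup G) ≤ CP := le_centralizer_of_card_prime (by norm_num) hP
    -- the element of order three
    obtain ⟨c', hc'⟩ := exists_prime_orderOf_dvd_card' (G := CP) 3 (by rw [hC]; norm_num)
    obtain ⟨c, hcC⟩ := c'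
    have ho : orderOf c = 3 := by rw [← hc']; exact (Subgroup.orderOf_mk c hcC).symm
    have hc1 : c ≠ 1 := by
      intro h0
      rw [h0, orderOf_one] at ho
      omega
    obtain ⟨n', hn1, hn2, hn3, hn4, -, hn6⟩ := centralizer_data hG hp2 hpG P hP hc1 hcC
    have hfix := hn6 (by rw [ho]; norm_num)
    have hmod := card_fixedBy_modEq_prime (X := Sylow 5 G) ho
    rw [← hfix, hn] at hmod
    rw [hn] at hn2
    -- `C(P)` centralizes `c`
    have hPcc : (P : Subgroup G) ≤ centralizer ({c} : Set G) := by
      intro x hx
      rw [Subgroup.mem_centralizer_singleton_iff]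
      exact (Subgroup.mem_centralizer_iff.1 hcC x hx)
    have hCPc : CP ≤ centralizer ({c} : Set G) := by
      set L := CP ⊓ centralizer ({c} : Set G) with hL
      have h5L : 5 ∣ Nat.card L := by
        have : Nat.card (P : Subgroup G) ∣ Nat.card L := Subgroup.card_dvd_of_le (le_inf hPC hPcc)
        rwa [hP] at this
      have h3L : 3 ∣ Nat.card L := by
        have hmem : c ∈ L := ⟨hcC, Subgroup.mem_centralizer_singleton_iff.2 rfl⟩
        have := Subgroup.orderOf_dvd_natCard L hmem
        rwa [ho] at this
      have h15L : 15 ∣ Nat.card L := Nat.Coprime.mul_dvd_of_dvd_of_dvd (by norm_num) h3L h5L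
      have hLC : L = CP := Subgroup.eq_of_le_of_card_ge inf_le_left
        (by rw [hC]; exact Nat.le_of_dvd Nat.card_pos h15L)
      rw [← hLC]
      exact inf_le_right
    set u := Nat.card ↥(centralizer ({c} : Set G) ⊓ NP) with hu
    have hu1 : u ∣ 30 := by
      rw [← hN]
      exact Subgroup.card_dvd_of_le inf_le_right
    have hu2 : 15 ∣ u := by
      rw [← hC]
      exact Subgroup.card_dvd_of_le (le_inf hCPc hCN)
    have hidx := Subgroup.card_mul_index (centralizer ({c} : Set G))
    rw [hn3, h] at hidx
    have hn' : n' = 6 ∨ n' = 21 := by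
      unfold Nat.ModEq at hmod
      omega
    have hu3 : u = 15 ∨ u = 30 := by
      have hm : u ∈ Nat.divisors 30 := Nat.mem_divisors.2 ⟨hu1, by norm_num⟩
      have hd : ∀ u ∈ Nat.divisors 30, 15 ∣ u → u = 15 ∨ u = 30 := by decide +kernel
      exact hd u hm hu2
    rcases hn' with rfl | rfl
    · rcases hu3 with hu3 | hu3
      · -- `c` is inverted by an element of the normalizer
        have hC90 : Nat.card (centralizer ({c} : Set G)) = 90 := by rw [hn3, hu3]
        have hex : ∃ t ∈ NP, t ∉ centralizer ({c} : Set G) := by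
          by_contra hcon
          push Not at hcon
          have : NP ≤ centralizer ({c} : Set G) ⊓ NP := fun x hx => ⟨hcon x hx, hx⟩
          have h6 := Subgroup.card_le_of_le this
          omega
        obtain ⟨t, htN, htC⟩ := hex
        have htcC : t * c * t⁻¹ ∈ CP := by
          rw [hCP, Subgroup.mem_centralizer_iff]
          intro x hx
          have h2 := (Subgroup.mem_normalizer_iff.1 htN (t⁻¹ * x * t)).2 (by
            have : t * (t⁻¹ * x * t) * t⁻¹ = x := by group
            rw [this]; exact hx)
          have h3 := Subgroup.mem_centralizer_iff.1 hcC _ h2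
          calc x * (t * c * t⁻¹) = t * ((t⁻¹ * x * t) * c) * t⁻¹ := by group
            _ = t * (c * (t⁻¹ * x * t)) * t⁻¹ := by rw [h3]
            _ = _ := by group
        -- uniqueness in `C(P)`
        have hs3 : Nat.card (Sylow 3 CP) = 1 := by
          have h15 : Nat.card CP = 3 ^ 1 * 5 := by rw [hC]; norm_num
          have h1 := card_sylow_dvd h15 (by norm_num)
          have h2 := card_sylow_mod (G := CP) (p := 3)
          have hm : Nat.card (Sylow 3 CP) ∈ Nat.divisors 5 := Nat.mem_divisors.2 ⟨h1, by norm_num⟩
          have hd : ∀ x ∈ Nat.divisors 5, x % 3 = 1 % 3 → x = 1 := by decide +kernel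
          exact hd _ hm h2
        have hmemz := mem_zpowers_of_unique_sylow (A := CP) (q := 3) (a := ⟨c, hcC⟩)
          (b := ⟨t * c * t⁻¹, htcC⟩) (by rw [hC]; norm_num) hs3
          (by rw [Subgroup.orderOf_mk]; exact ho)
          (by
            rw [Subgroup.orderOf_mk]
            have : t * c * t⁻¹ = MulAut.conj t c := rfl
            rw [this, MulEquiv.orderOf_eq]
            exact ho)
        obtain ⟨z, hz⟩ := Subgroup.mem_zpowers_iff.1 hmemz
        have hz' : c ^ z = t * c * t⁻¹ := by
          have := congrArg Subtype.val hz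
          simpa using this
        -- the normalizer of `⟨c⟩`
        set K := normalizer ((zpowers c : Subgroup G) : Set G) with hK
        have hCK : centralizer ({c} : Set G) ≤ K := by
          intro x hx
          apply mem_normalizer_of_conj_le
          intro y hy
          obtain ⟨k, rfl⟩ := Subgroup.mem_zpowers_iff.1 hy
          have hxc : x * c = c * x := Subgroup.mem_centralizer_singleton_iff.1 hx
          have : x * c ^ k * x⁻¹ = c ^ k := by
            rw [← conj_zpow, hxc]
            simp
          rw [this]
          exact Subgroup.zpow_mem_zpowers c k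
        have htK : t ∈ K := by
          apply mem_normalizer_of_conj_le
          intro y hy
          obtain ⟨k, rfl⟩ := Subgroup.mem_zpowers_iff.1 hy
          rw [← conj_zpow, ← hz', ← zpow_mul]
          exact Subgroup.zpow_mem_zpowers c _
        have hKtop : K ≠ ⊤ := by
          intro htop
          have hnorm : (zpowers c).Normal := normalizer_eq_top_iff.1 htop
          rcases hnorm.eq_bot_or_eq_top with hb | ht
          · exact hc1 (Subgroup.zpowers_eq_bot.1 hb)
          · have := Nat.card_zpowers c
            rw [ht, Subgroup.card_top, h, ho] at this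
            omega
        have hdvd := Cfsg.Agent.Lib.SmallGroups.two_mul_card_dvd_factorial_index hG K hKtop
        rw [h] at hdvd
        have hrel := Subgroup.relIndex_mul_index hCK
        have hCidx : (centralizer ({c} : Set G)).index = 12 := by
          have := Subgroup.card_mul_index (centralizer ({c} : Set G))
          rw [hC90, h] at this
          omega
        rw [hCidx] at hrel
        have hr1 : (centralizer ({c} : Set G)).relIndex K ≠ 1 := by
          intro h1
          rw [Subgroup.relIndex_eq_one] at h1
          exact htC (h1 htK)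
        have hKi : K.index ≤ 6 := by
          have h0 : (centralizer ({c} : Set G)).relIndex K ≠ 0 := by
            intro h0
            rw [h0] at hrel
            omega
          by_contra hgt
          push Not at hgt
          have h2 : 2 ≤ (centralizer ({c} : Set G)).relIndex K := by omega
          nlinarith
        have hfact : K.index.factorial ≤ 720 := by
          have := Nat.factorial_le hKi
          simpa [Nat.factorial] using this
        have hpos : 0 < K.index.factorial := Nat.factorial_pos _
        have := Nat.le_of_dvd hpos hdvd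
        omega
      · have hC180 : Nat.card (centralizer ({c} : Set G)) = 180 := by rw [hn3, hu3]
        have hCidx : (centralizer ({c} : Set G)).index = 6 := by
          have := Subgroup.card_mul_index (centralizer ({c} : Set G))
          rw [hC180, h] at this
          omega
        have := index_embed hG hc1
        rw [hCidx, h] at this
        revert this
        decide
    · rcases hu3 with hu3 | hu3 <;> (rw [hu3] at hidx; omega)

end Cfsg.Agent.H87Ord
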