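import Mathlib
import Cfsg.Agent.H87Ord.Custom

/-!
# No simple group of order 756
-/

set_option autoImplicit false

namespace Cfsg.Agent.H87Ord

open Subgroup Cfsg.Agent.Lib.SmallGroups2 Cfsg.Agent.Lib.SmallGroups3 Cfsg.Agent.Lib.Small168
open Cfsg.Agent.Lib.TwoLocal Cfsg.Agent.Lib.TwoLocal2 Cfsg.Agent.Lib.TwoLocal3

variable {G : Type*} [Group G] [Finite G]

/-- A subgroup of full `p`-part order is a Sylow subgroup. -/
theorem exists_sylow_of_card_eq {p a m : ℕ} [Fact p.Prime] (h : Nat.card G = p ^ a * m) (hm : ¬ p ∣ m)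
    (K : Subgroup G) (hK : Nat.card K = p ^ a) : ∃ S : Sylow p G, (S : Subgroup G) = K := by
  have hp : p.Prime := Fact.out
  have hpg : IsPGroup p K := by
    rw [IsPGroup.iff_card]
    exact ⟨a, hK⟩
  obtain ⟨S, hS⟩ := hpg.exists_le_sylow
  refine ⟨S, (Subgroup.eq_of_le_of_card_ge hS ?_).symm⟩
  rw [hK, sylow_card_of_card_eq h hm S]

/-- The centralizer of an element in a group of order `p ^ 3` has order at least `p ^ 2`. -/
theorem le_card_inf_centralizer {p : ℕ} [Fact p.Prime] (P : Subgroup G) (hP : Nat.card P = p ^ 3) {g : G}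
    (hg : g ∈ P) (hg1 : g ≠ 1) : p ^ 2 ∣ Nat.card ↥(P ⊓ centralizer ({g} : Set G)) := by
  have hp : p.Prime := Fact.out
  set C := P ⊓ centralizer ({g} : Set G) with hC
  have hCP : Nat.card C ∣ p ^ 3 := by
    rw [← hP]; exact Subgroup.card_dvd_of_le inf_le_left
  obtain ⟨k, hk, hk'⟩ := (Nat.dvd_prime_pow hp).1 hCP
  rw [hk']
  by_contra hcon
  have hk2 : k < 2 := by
    by_contra hk2
    exact hcon (pow_dvd_pow p (by omega))
  have hgC : g ∈ C := Subgroup.mem_inf.2 ⟨hg, Subgroup.mem_centralizer_singleton_iff.2 rfl⟩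
  have hcg : Nat.card (zpowers g) ∣ Nat.card C := by
    apply Subgroup.card_dvd_of_le
    rw [Subgroup.zpowers_le]
    exact hgC
  -- the center of `P`
  have hPp : IsPGroup p P := by
    rw [IsPGroup.iff_card]
    exact ⟨3, hP⟩
  haveI : Nontrivial P := by
    rw [← Finite.one_lt_card_iff_nontrivial, hP]
    exact Nat.one_lt_pow (by norm_num) hp.one_lt
  haveI : Nontrivial (center P) := hPp.center_nontrivial
  obtain ⟨z, hz⟩ := exists_ne (1 : center P)
  have hz1 : ((z : P) : G) ≠ 1 := by
    intro h0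
    apply hz
    apply Subtype.ext
    apply Subtype.ext
    exact h0
  have hzC : ((z : P) : G) ∈ C := by
    refine Subgroup.mem_inf.2 ⟨(z : P).2, ?_⟩
    rw [Subgroup.mem_centralizer_singleton_iff]
    have := (Subgroup.mem_center_iff.1 z.2) ⟨g, hg⟩
    exact (congrArg Subtype.val this).symm
  have hgo : orderOf g ≠ 1 := fun h1 => hg1 (orderOf_eq_one_iff.1 h1)
  have hcg0 : Nat.card (zpowers g) ≠ 1 := by rwa [Nat.card_zpowers]
  interval_cases k
  · rw [pow_zero] at hk'
    rw [hk'] at hcg
    exact hcg0 (Nat.dvd_one.1 hcg)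
  · rw [pow_one] at hk'
    -- `C` has prime order, generated by `g`, so `z` is a power of `g`, so `g` is central
    have hgen := zpowers_eq_of_mem_of_ne_one hp hk' hgC hg1
    have hzg : ((z : P) : G) ∈ zpowers g := by rw [hgen]; exact hzC
    have hgen2 := zpowers_eq_of_mem_of_ne_one hp hk' hzC hz1
    have hgz : g ∈ zpowers ((z : P) : G) := by rw [hgen2]; exact hgC
    obtain ⟨n, hn⟩ := Subgroup.mem_zpowers_iff.1 hgz
    have hPC : P ≤ C := by
      intro x hx
      refine Subgroup.mem_inf.2 ⟨hx, ?_⟩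
      rw [Subgroup.mem_centralizer_singleton_iff, ← hn]
      have hzx : x * ((z : P) : G) = ((z : P) : G) * x := by
        have := (Subgroup.mem_center_iff.1 z.2) ⟨x, hx⟩
        exact congrArg Subtype.val this
      exact (Commute.zpow_right hzx n).eq
    have := Subgroup.card_dvd_of_le hPC
    rw [hP, hk'] at this
    have h3 := Nat.le_of_dvd hp.pos this
    have h4 : p < p ^ 3 := by
      calc p = p ^ 1 := (pow_one p).symm
        _ < p ^ 3 := Nat.pow_lt_pow_right hp.one_lt (by norm_num)
    omega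

section o756

variable [IsSimpleGroup G] (hG : ¬ IsMulCommutative G) (h : Nat.card G = 756)

include hG h

omit [IsSimpleGroup G] hG h in
private theorem dummy756 : True := trivial

theorem card_sylow7_756 [Fact (Nat.Prime 7)] : Nat.card (Sylow 7 G) = 36 := by
  have h7 : Nat.card G = 7 * 108 := by rw [h]
  have hmem := card_sylow_mem_candidates hG h7 (by norm_num)
  have hc : sylowCandidates 7 108 = {36} := by decide +kernel
  rw [hc] at hmem
  simpa using hmem

theorem card_P7_756 [Fact (Nat.Prime 7)] (Q : Sylow 7 G) : Nat.card (Q : Subgroup G) = 7 := by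
  rw [sylow_card_of_card_eq (a := 1) (m := 108) (by rw [h]; norm_num) (by norm_num) Q, pow_one]

theorem centralizer_P7_756 [Fact (Nat.Prime 7)] (Q : Sylow 7 G) :
    Nat.card (centralizer ((Q : Subgroup G) : Set G)) = 7 := by
  have hQ := card_P7_756 hG h Q
  have hN : Nat.card (normalizer ((Q : Subgroup G) : Set G)) = 21 := by
    have h1 := card_normalizer_mul_card_sylow Q
    rw [h, card_sylow7_756 hG h] at h1
    omega
  obtain ⟨e, he1, he2⟩ := exists_relIndex Q hQ
  rw [hN] at he2
  have hpG : 7 ∣ Nat.card G := by rw [h]; norm_num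
  have he3 : e ≠ 1 := by
    rintro rfl
    apply normalizer_eq_centralizer_false hG hpG Q
    rw [hN]
    omega
  have he4 : e ∈ Nat.divisors 6 := Nat.mem_divisors.2 ⟨he1, by norm_num⟩
  have he5 : e ∣ 21 := ⟨_, by rw [mul_comm]; exact he2.symm⟩
  have he6 : ∀ e ∈ Nat.divisors 6, e ≠ 1 → e ∣ 21 → e = 3 := by decide +kernel
  obtain rfl := he6 e he4 he3 he5
  omega

theorem card_sylow3_756 [Fact (Nat.Prime 3)] : Nat.card (Sylow 3 G) = 28 := by
  have h3 : Nat.card G = 3 ^ 3 * 28 := by rw [h]; norm_num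
  have hmem := card_sylow_mem_filter h3 (by norm_num) (by norm_num)
  have hne := card_sylow_ne_one hG (p := 3) (by rw [h]; norm_num)
  have hemb := two_mul_card_dvd_factorial_card_sylow hG (p := 3) (by rw [h]; norm_num)
  rw [h] at hemb
  have hd : ∀ x ∈ (Nat.divisors 28).filter (fun n => n % 3 = 1 % 3), x ≠ 1 → 2 * 756 ∣ x.factorial → x = 28 := by
    decide +kernel
  exact hd _ hmem hne hemb

theorem card_P3_756 [Fact (Nat.Prime 3)] (Q : Sylow 3 G) : Nat.card (Q : Subgroup G) = 3 ^ 3 :=
  sylow_card_of_card_eq (a := 3) (m := 28) (by rw [h]; norm_num) (by norm_num) Q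

/-- Two distinct Sylow `3`-subgroups meet in a group of order at most `3`. -/
theorem card_inf_756 [Fact (Nat.Prime 3)] {P R : Sylow 3 G} (hne : P ≠ R) :
    Nat.card ↥((P : Subgroup G) ⊓ (R : Subgroup G)) ∣ 3 := by
  have hcP := card_P3_756 hG h P
  have hcR := card_P3_756 hG h R
  have h3 : Nat.card G = 3 ^ 3 * 28 := by rw [h]; norm_num
  have hd : Nat.card ↥((P : Subgroup G) ⊓ (R : Subgroup G)) ∣ 3 ^ 3 := by
    rw [← hcP]
    exact Subgroup.card_dvd_of_le inf_le_left
  obtain ⟨k, hk, hk'⟩ := (Nat.dvd_prime_pow (by norm_num : Nat.Prime 3)).1 hd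
  rw [hk']
  have hk3 : k ≠ 3 := by
    rintro rfl
    apply hne
    have h1 : (P : Subgroup G) ⊓ (R : Subgroup G) = P :=
      Subgroup.eq_of_le_of_card_ge inf_le_left (by rw [hk', hcP])
    have h2 : (P : Subgroup G) ⊓ (R : Subgroup G) = R :=
      Subgroup.eq_of_le_of_card_ge inf_le_right (by rw [hk', hcR])
    exact Sylow.ext (h1.symm.trans h2)
  have hk2 : k ≠ 2 := by
    rintro rfl
    -- the indices are three
    have hidx : ∀ U V : Sylow 3 G, Nat.card ↥((U : Subgroup G) ⊓ (V : Subgroup G)) = 3 ^ 2 →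
        ((V : Subgroup G).subgroupOf (U : Subgroup G)).index = 3 := by
      intro U V hUV
      have h4 := Subgroup.card_mul_index ((V : Subgroup G).subgroupOf (U : Subgroup G))
      have h5 : Nat.card ((V : Subgroup G).subgroupOf (U : Subgroup G)) =
          Nat.card ((U : Subgroup G) ⊓ (V : Subgroup G) : Subgroup G) := by
        rw [← Subgroup.inf_subgroupOf_left]
        exact Nat.card_congr (Subgroup.subgroupOfEquivOfLe inf_le_left).toEquiv
      rw [h5, hUV, card_P3_756 hG h U] at h4
      omega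
    have hPn := le_normalizer_inf_of_index hcP (by norm_num) (hidx P R hk')
    have hRn := le_normalizer_inf_of_index hcR (by norm_num) (hidx R P (by rw [inf_comm]; exact hk'))
    rw [inf_comm] at hRn
    have hM : normalizer (((P : Subgroup G) ⊓ (R : Subgroup G) : Subgroup G) : Set G) ≠ ⊤ := by
      intro htop
      have hnorm : ((P : Subgroup G) ⊓ (R : Subgroup G) : Subgroup G).Normal := normalizer_eq_top_iff.1 htop
      rcases hnorm.eq_bot_or_eq_top with hb | ht
      · rw [hb] at hk'
        simp at hk'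
      · rw [ht, Subgroup.card_top, h] at hk'
        omega
    have hmem := index_mem_tameCandidates hG h3 (by norm_num) _ hM P R hne hPn hRn
    rw [h] at hmem
    have hemp : tameCandidates 756 3 28 = ∅ := by decide +kernel
    rw [hemp] at hmem
    simp at hmem
  have : k = 0 ∨ k = 1 := by omega
  rcases this with rfl | rfl <;> norm_num

omit [IsSimpleGroup G] hG h in
theorem card_subgroupOf_eq_inf (H K : Subgroup G) : Nat.card (H.subgroupOf K) = Nat.card ↥(H ⊓ K) := by
  rw [inf_comm, ← Subgroup.inf_subgroupOf_left]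
  exact Nat.card_congr (Subgroup.subgroupOfEquivOfLe inf_le_left).toEquiv

/-- The Sylow `3`-subgroup of the centralizer obtained from a Sylow subgroup containing `g`,
for a centralizer of order `36`. -/
theorem exists_sylow_inf_756 [Fact (Nat.Prime 3)] {g : G} (hg1 : g ≠ 1) (P : Sylow 3 G) (hgP : g ∈ (P : Subgroup G))
    (hA : Nat.card (centralizer ({g} : Set G)) = 36) :
    ∃ S : Sylow 3 (centralizer ({g} : Set G)),
      (S : Subgroup (centralizer ({g} : Set G))) = (P : Subgroup G).subgroupOf (centralizer ({g} : Set G)) := by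
  set A := centralizer ({g} : Set G) with hAdef
  have h9 := le_card_inf_centralizer (P : Subgroup G) (card_P3_756 hG h P) hgP hg1
  apply exists_sylow_of_card_eq (p := 3) (a := 2) (m := 4) (by rw [hA]; norm_num) (by norm_num)
  rw [card_subgroupOf_eq_inf]
  have h1 : Nat.card ↥((P : Subgroup G) ⊓ A) ∣ 3 ^ 3 := by
    rw [← card_P3_756 hG h P]
    exact Subgroup.card_dvd_of_le inf_le_left
  have h2 : Nat.card ↥((P : Subgroup G) ⊓ A) ∣ 36 := by
    rw [← hA]
    exact Subgroup.card_dvd_of_le inf_le_right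
  obtain ⟨k, hk, hk'⟩ := (Nat.dvd_prime_pow (by norm_num : Nat.Prime 3)).1 h1
  rw [hk'] at h2 h9 ⊢
  interval_cases k <;> revert h2 h9 <;> decide

set_option maxHeartbeats 1000000 in
theorem data_756 [Fact (Nat.Prime 3)] [Fact (Nat.Prime 7)] [Fact (Nat.Prime 2)] {g : G} (hg1 : g ≠ 1) {P R : Sylow 3 G} (hne : P ≠ R)
    (hgP : g ∈ (P : Subgroup G)) (hgR : g ∈ (R : Subgroup G)) :
    orderOf g = 3 ∧ (zpowers g = (P : Subgroup G) ⊓ (R : Subgroup G)) ∧
      Nat.card (centralizer ({g} : Set G)) = 36 ∧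
      Nat.card (Sylow 3 (centralizer ({g} : Set G))) = 4 ∧
      Nat.card (Sylow 2 G) = 21 ∧
      ∃ T : Sylow 2 G, normalizer ((T : Subgroup G) : Set G) = centralizer ({g} : Set G) := by
  have hinf := card_inf_756 hG h hne
  have hgI : g ∈ (P : Subgroup G) ⊓ (R : Subgroup G) := Subgroup.mem_inf.2 ⟨hgP, hgR⟩
  have hI3 : Nat.card ↥((P : Subgroup G) ⊓ (R : Subgroup G)) = 3 := by
    rcases (Nat.dvd_prime (by norm_num : Nat.Prime 3)).1 hinf with h1 | h1
    · exfalso
      apply hg1
      have := Subgroup.orderOf_dvd_natCard _ hgI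
      rw [h1, Nat.dvd_one] at this
      exact orderOf_eq_one_iff.1 this
    · exact h1
  have hzp := zpowers_eq_of_mem_of_ne_one (by norm_num : Nat.Prime 3) hI3 hgI hg1
  have ho := orderOf_eq_of_mem_of_ne_one (by norm_num : Nat.Prime 3) hI3 hgI hg1
  refine ⟨ho, hzp, ?_⟩
  set A := centralizer ({g} : Set G) with hAdef
  have h9P := le_card_inf_centralizer (P : Subgroup G) (card_P3_756 hG h P) hgP hg1
  have h9R := le_card_inf_centralizer (R : Subgroup G) (card_P3_756 hG h R) hgR hg1
  rw [← hAdef] at h9P h9R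
  have hP9 : ∀ P' : Sylow 3 G, g ∈ (P' : Subgroup G) → 3 ^ 2 ∣ Nat.card ↥((P' : Subgroup G) ⊓ A) := by
    intro P' hP'
    exact le_card_inf_centralizer (P' : Subgroup G) (card_P3_756 hG h P') hP' hg1
  -- a unique Sylow subgroup in `A` is impossible
  have hell : Nat.card (Sylow 3 A) ≠ 1 := by
    intro h1
    obtain ⟨S⟩ : Nonempty (Sylow 3 A) := inferInstance
    have hs : Subsingleton (Sylow 3 A) := (Nat.card_eq_one_iff_unique.1 h1).1
    have hleS : ∀ P' : Sylow 3 G, ((P' : Subgroup G) ⊓ A) ≤ (S : Subgroup A).map A.subtype := by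
      intro P' x hx
      have hpg : IsPGroup 3 ((P' : Subgroup G).subgroupOf A) := by
        have := P'.isPGroup'
        exact IsPGroup.comap_subtype this
      obtain ⟨S', hS'⟩ := hpg.exists_le_sylow
      have hSS : S' = S := Subsingleton.elim _ _
      rw [hSS] at hS'
      have hxA : x ∈ A := (Subgroup.mem_inf.1 hx).2
      have hx' : (⟨x, hxA⟩ : A) ∈ (P' : Subgroup G).subgroupOf A :=
        Subgroup.mem_subgroupOf.2 (Subgroup.mem_inf.1 hx).1
      exact ⟨⟨x, hxA⟩, hS' hx', rfl⟩
    set U := (S : Subgroup A).map A.subtype with hU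
    have hUp : IsPGroup 3 U := S.isPGroup'.map A.subtype
    have hUc : Nat.card U ∣ 756 := by
      rw [← h]; exact Subgroup.card_subgroup_dvd_card _
    obtain ⟨k, hk⟩ := IsPGroup.iff_card.1 hUp
    have h9U : 3 ^ 2 ∣ Nat.card U := dvd_trans h9P (Subgroup.card_dvd_of_le (hleS P))
    rw [hk] at hUc h9U
    have hk3 : k ≤ 3 := by
      by_contra hk3
      have : 3 ^ 4 ∣ 756 := dvd_trans (pow_dvd_pow 3 (by omega)) hUc
      revert this
      norm_num
    have hk2 : 2 ≤ k := by
      by_contra hk2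
      have : k = 0 ∨ k = 1 := by omega
      rcases this with rfl | rfl <;> revert h9U <;> norm_num
    have hk' : k = 2 ∨ k = 3 := by omega
    rcases hk' with rfl | rfl
    · -- `U` has order `9`
      have hPU : (P : Subgroup G) ⊓ A = U := by
        apply Subgroup.eq_of_le_of_card_ge (hleS P)
        rw [hk]
        exact Nat.le_of_dvd Nat.card_pos h9P
      have hRU : (R : Subgroup G) ⊓ A = U := by
        apply Subgroup.eq_of_le_of_card_ge (hleS R)
        rw [hk]
        exact Nat.le_of_dvd Nat.card_pos h9R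
      have hle : (P : Subgroup G) ⊓ A ≤ (P : Subgroup G) ⊓ (R : Subgroup G) := by
        intro x hx
        refine Subgroup.mem_inf.2 ⟨(Subgroup.mem_inf.1 hx).1, ?_⟩
        have : x ∈ (R : Subgroup G) ⊓ A := by rw [hRU, ← hPU]; exact hx
        exact (Subgroup.mem_inf.1 this).1
      have := dvd_trans h9P (Subgroup.card_dvd_of_le hle)
      rw [hI3] at this
      revert this
      norm_num
    · -- `U` is a Sylow subgroup of `G`
      obtain ⟨V, hV⟩ := exists_sylow_of_card_eq (p := 3) (a := 3) (m := 28) (by rw [h]; norm_num)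
        (by norm_num) U hk
      have key : ∀ P' : Sylow 3 G, g ∈ (P' : Subgroup G) → V = P' := by
        intro P' hP'
        by_contra hVP
        have h1 := card_inf_756 hG h hVP
        have h2 : (P' : Subgroup G) ⊓ A ≤ (V : Subgroup G) ⊓ (P' : Subgroup G) := by
          intro x hx
          refine Subgroup.mem_inf.2 ⟨?_, (Subgroup.mem_inf.1 hx).1⟩
          rw [hV]
          exact hleS P' hx
        have h3 := dvd_trans (dvd_trans (hP9 P' hP') (Subgroup.card_dvd_of_le h2)) h1
        revert h3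
        norm_num
      exact hne ((key P hgP).symm.trans (key R hgR))
  -- the order of `A`
  have hAne : A ≠ ⊤ := centralizer_singleton_ne_top hG hg1
  have hidx := Subgroup.card_mul_index A
  rw [h] at hidx
  have hemb := index_embed hG hg1
  rw [← hAdef, h] at hemb
  have h9A : 3 ^ 2 ∣ Nat.card A := dvd_trans h9P (Subgroup.card_dvd_of_le inf_le_right)
  have hAd : Nat.card A ∈ Nat.divisors 756 := Nat.mem_divisors.2 ⟨⟨_, hidx.symm⟩, by norm_num⟩
  have hi : A.index = 756 / Nat.card A := by
    rw [← hidx]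
    exact (Nat.mul_div_cancel_left _ Nat.card_pos).symm
  rw [hi] at hemb
  have hcases : ∀ a ∈ Nat.divisors 756, 3 ^ 2 ∣ a → 2 * 756 ∣ (756 / a).factorial →
      a = 9 ∨ a = 18 ∨ a = 27 ∨ a = 36 ∨ a = 54 ∨ a = 63 := by decide +kernel
  have ell_one : ∀ b c : ℕ, Nat.card A = 3 ^ b * c → c < 3 → c ≠ 0 → False := by
    intro b c hbc hc hc0
    apply hell
    have h1 := card_sylow_dvd hbc (by
      intro hd
      have := Nat.le_of_dvd (Nat.pos_of_ne_zero hc0) hd
      omega)
    have h2 := card_sylow_mod (G := A) (p := 3)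
    have h3 := Nat.le_of_dvd (Nat.pos_of_ne_zero hc0) h1
    have h4 : Nat.card (Sylow 3 A) ≠ 0 := Nat.card_pos.ne'
    omega
  have hA36 : Nat.card A = 36 := by
    rcases hcases _ hAd h9A hemb with h1 | h1 | h1 | h1 | h1 | h1
    · exact (ell_one 2 1 (by rw [h1]; norm_num) (by norm_num) (by norm_num)).elim
    · exact (ell_one 2 2 (by rw [h1]; norm_num) (by norm_num) (by norm_num)).elim
    · exact (ell_one 3 1 (by rw [h1]; norm_num) (by norm_num) (by norm_num)).elim
    · exact h1
    · exact (ell_one 3 2 (by rw [h1]; norm_num) (by norm_num) (by norm_num)).elim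
    · exfalso
      obtain ⟨x', hx'⟩ := exists_prime_orderOf_dvd_card' (G := A) 7 (by rw [h1]; norm_num)
      obtain ⟨x, hxA⟩ := x'
      have hox : orderOf x = 7 := by rw [← hx']; exact (Subgroup.orderOf_mk x hxA).symm
      obtain ⟨Q, hQ⟩ := exists_sylow_mem_of_orderOf hox
      have hx1 : x ≠ 1 := by
        intro h0
        rw [h0, orderOf_one] at hox
        omega
      have hcQ := card_P7_756 hG h Q
      have hQz := zpowers_eq_of_mem_of_ne_one (by norm_num : Nat.Prime 7) hcQ hQ hx1
      have hgC : g ∈ centralizer ((Q : Subgroup G) : Set G) := by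
        rw [Subgroup.mem_centralizer_iff]
        intro y hy
        rw [SetLike.mem_coe, ← hQz] at hy
        obtain ⟨k, rfl⟩ := Subgroup.mem_zpowers_iff.1 hy
        have hxg : x * g = g * x := Subgroup.mem_centralizer_singleton_iff.1 hxA
        exact (Commute.zpow_left hxg k).eq
      have hQC : (Q : Subgroup G) = centralizer ((Q : Subgroup G) : Set G) :=
        Subgroup.eq_of_le_of_card_ge (le_centralizer_of_card_prime (by norm_num) hcQ)
          (by rw [centralizer_P7_756 hG h Q, hcQ])
      rw [← hQC] at hgC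
      have := Subgroup.orderOf_dvd_natCard _ hgC
      rw [hcQ, ho] at this
      revert this
      norm_num
  refine ⟨hA36, ?_⟩
  -- the number of Sylow subgroups in `A`
  have hl4 : Nat.card (Sylow 3 A) = 4 := by
    have hbc : Nat.card A = 3 ^ 2 * 4 := by rw [hA36]; norm_num
    have h1 := card_sylow_dvd hbc (by norm_num)
    have h2 := card_sylow_mod (G := A) (p := 3)
    have hm : Nat.card (Sylow 3 A) ∈ Nat.divisors 4 := Nat.mem_divisors.2 ⟨h1, by norm_num⟩
    have hd : ∀ x ∈ Nat.divisors 4, x % 3 = 1 % 3 → x ≠ 1 → x = 4 := by decide +kernel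
    exact hd _ hm h2 hell
  refine ⟨hl4, ?_⟩
  -- the normal complement
  obtain ⟨S⟩ : Nonempty (Sylow 3 A) := inferInstance
  have hS : Nat.card (S : Subgroup A) = 3 ^ 2 :=
    sylow_card_of_card_eq (a := 2) (m := 4) (by rw [hA36]; norm_num) (by norm_num) S
  have hNS : Nat.card (normalizer ((S : Subgroup A) : Set A)) = 9 := by
    have h1 := card_normalizer_mul_card_sylow S
    rw [hl4, hA36] at h1
    omega
  have hNS2 : (S : Subgroup A) = normalizer ((S : Subgroup A) : Set A) :=
    Subgroup.eq_of_le_of_card_ge le_normalizer (by rw [hNS, hS]; norm_num)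
  have hle : normalizer ((S : Subgroup A) : Set A) ≤ centralizer ((S : Subgroup A) : Set A) := by
    rw [← hNS2]
    letI := IsPGroup.commGroupOfCardEqPrimeSq hS
    intro x hx
    rw [Subgroup.mem_centralizer_iff]
    intro y hy
    exact congrArg Subtype.val (mul_comm (⟨y, hy⟩ : (S : Subgroup A)) ⟨x, hx⟩)
  obtain ⟨K₀, hK₀n, hcomp⟩ : ∃ K₀ : Subgroup A, K₀.Normal ∧ IsComplement' K₀ (S : Subgroup A) :=
    ⟨_, inferInstance, MonoidHom.ker_transferSylow_isComplement' S hle⟩
  have hK₀c : Nat.card K₀ = 4 := by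
    have := hcomp.card_mul
    rw [hS, hA36] at this
    omega
  set T₀ : Subgroup G := K₀.map A.subtype with hT₀
  have hT₀c : Nat.card T₀ = 2 ^ 2 := by
    have : Nat.card T₀ = Nat.card K₀ :=
      Nat.card_congr (Subgroup.equivMapOfInjective K₀ A.subtype A.subtype_injective).toEquiv.symm
    rw [this, hK₀c]
    norm_num
  obtain ⟨T, hT⟩ := exists_sylow_of_card_eq (p := 2) (a := 2) (m := 189) (by rw [h]; norm_num)
    (by norm_num) T₀ hT₀c
  have hAN : A ≤ normalizer ((T : Subgroup G) : Set G) := by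
    intro a ha
    apply mem_normalizer_of_conj_le
    intro y hy
    rw [hT] at hy ⊢
    obtain ⟨k, hk, rfl⟩ := hy
    refine ⟨⟨a, ha⟩ * k * (⟨a, ha⟩ : A)⁻¹, hK₀n.conj_mem k hk ⟨a, ha⟩, ?_⟩
    simp
  have hNT := card_normalizer_mul_card_sylow T
  rw [h] at hNT
  have h36 : 36 ∣ Nat.card (normalizer ((T : Subgroup G) : Set G)) := by
    rw [← hA36]; exact Subgroup.card_dvd_of_le hAN
  obtain ⟨r, hr⟩ := h36
  have hn21 : Nat.card (Sylow 2 G) * r = 21 := by
    rw [hr] at hNT
    nlinarith
  have hemb2 := two_mul_card_dvd_factorial_card_sylow hG (p := 2) (by rw [h]; norm_num)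
  rw [h] at hemb2
  have hnd : Nat.card (Sylow 2 G) ∈ Nat.divisors 21 := Nat.mem_divisors.2 ⟨⟨r, hn21.symm⟩, by norm_num⟩
  have hd21 : ∀ x ∈ Nat.divisors 21, 2 * 756 ∣ x.factorial → x = 21 := by decide +kernel
  have hn2 := hd21 _ hnd hemb2
  refine ⟨hn2, T, ?_⟩
  rw [hn2] at hn21
  have hr1 : r = 1 := by omega
  rw [hr1, mul_one] at hr
  exact (Subgroup.eq_of_le_of_card_ge hAN (by rw [hr, hA36])).symm

/-- Number of Sylow subgroups through an element lying in two of them. -/
theorem mult_le_756 [Fact (Nat.Prime 3)] [Fact (Nat.Prime 7)] [Fact (Nat.Prime 2)] {g : G} (hg1 : g ≠ 1)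
    {P R : Sylow 3 G} (hne : P ≠ R) (hgP : g ∈ (P : Subgroup G)) (hgR : g ∈ (R : Subgroup G)) :
    Nat.card {Q : Sylow 3 G // g ∈ (Q : Subgroup G)} ≤ 4 := by
  obtain ⟨-, -, hA, hl, -⟩ := data_756 hG h hg1 hne hgP hgR
  rw [← hl]
  have hch : ∀ Q : {Q : Sylow 3 G // g ∈ (Q : Subgroup G)}, ∃ S : Sylow 3 (centralizer ({g} : Set G)),
      (S : Subgroup (centralizer ({g} : Set G))) =
        (Q.1 : Subgroup G).subgroupOf (centralizer ({g} : Set G)) :=
    fun Q => exists_sylow_inf_756 hG h hg1 Q.1 Q.2 hA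
  choose f hf using hch
  apply Nat.card_le_card_of_injective f
  intro Q Q' hQQ
  by_contra hne'
  have hne2 : Q.1 ≠ Q'.1 := fun h0 => hne' (Subtype.ext h0)
  have h1 := card_inf_756 hG h hne2
  have h9 := le_card_inf_centralizer (Q.1 : Subgroup G) (card_P3_756 hG h Q.1) Q.2 hg1
  have hle : (Q.1 : Subgroup G) ⊓ centralizer ({g} : Set G) ≤ (Q.1 : Subgroup G) ⊓ (Q'.1 : Subgroup G) := by
    intro x hx
    obtain ⟨hx1, hx2⟩ := Subgroup.mem_inf.1 hx
    refine Subgroup.mem_inf.2 ⟨hx1, ?_⟩
    have h2 : (⟨x, hx2⟩ : centralizer ({g} : Set G)) ∈ (Q.1 : Subgroup G).subgroupOf (centralizer ({g} : Set G)) :=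
      Subgroup.mem_subgroupOf.2 hx1
    rw [← hf Q, hQQ, hf Q'] at h2
    exact Subgroup.mem_subgroupOf.1 h2
  have h3 := dvd_trans (dvd_trans h9 (Subgroup.card_dvd_of_le hle)) h1
  revert h3
  norm_num

/-- An element with the same centralizer lies in the cyclic group. -/
theorem mem_zpowers_of_centralizer_eq_756 [Fact (Nat.Prime 3)] [Fact (Nat.Prime 7)] [Fact (Nat.Prime 2)] {g g' : G} (hg1 : g ≠ 1)
    {P R : Sylow 3 G} (hne : P ≠ R) (hgP : g ∈ (P : Subgroup G)) (hgR : g ∈ (R : Subgroup G))
    (hog : orderOf g' = 3) (hc : centralizer ({g'} : Set G) = centralizer ({g} : Set G)) :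
    g' ∈ zpowers g := by
  obtain ⟨-, hz, hA, -, -⟩ := data_756 hG h hg1 hne hgP hgR
  have hg'A : g' ∈ centralizer ({g} : Set G) := by
    rw [← hc]
    exact Subgroup.mem_centralizer_singleton_iff.2 rfl
  have key : ∀ Q : Sylow 3 G, g ∈ (Q : Subgroup G) → g' ∈ (Q : Subgroup G) := by
    intro Q hQ
    obtain ⟨S, hS⟩ := exists_sylow_inf_756 hG h hg1 Q hQ hA
    have hy : (⟨g', hg'A⟩ : centralizer ({g} : Set G)) ∈ normalizer
        ((S : Subgroup (centralizer ({g} : Set G))) : Set (centralizer ({g} : Set G))) := by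
      rw [Subgroup.mem_normalizer_iff]
      intro x
      have hcomm : (⟨g', hg'A⟩ : centralizer ({g} : Set G)) * x * (⟨g', hg'A⟩ : centralizer ({g} : Set G))⁻¹ = x := by
        apply Subtype.ext
        have hx : (x : G) ∈ centralizer ({g'} : Set G) := by rw [hc]; exact x.2
        have hxg : (x : G) * g' = g' * x := Subgroup.mem_centralizer_singleton_iff.1 hx
        simp only [Subgroup.coe_mul, InvMemClass.coe_inv, hxg.symm]
        group
      rw [hcomm]
    have h1 := mem_of_orderOf_of_mem_normalizer S (by rw [Subgroup.orderOf_mk]; exact hog) hy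
    rw [hS] at h1
    exact Subgroup.mem_subgroupOf.1 h1
  rw [hz]
  exact Subgroup.mem_inf.2 ⟨key P hgP, key R hgR⟩

theorem false_756 : False := by
  classical
  haveI : Fact (Nat.Prime 3) := ⟨by norm_num⟩
  haveI : Fact (Nat.Prime 7) := ⟨by norm_num⟩
  haveI : Fact (Nat.Prime 2) := ⟨by norm_num⟩
  haveI : Fintype G := Fintype.ofFinite G
  haveI : Fintype (Sylow 3 G) := Fintype.ofFinite _
  haveI : Fintype (Sylow 2 G) := Fintype.ofFinite _
  let m : G → Finset (Sylow 3 G) := fun g => Finset.univ.filter fun Q => g ∈ (Q : Subgroup G)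
  have hmc : ∀ g, (m g).card = Nat.card {Q : Sylow 3 G // g ∈ (Q : Subgroup G)} := by
    intro g
    rw [Nat.card_eq_fintype_card, Fintype.card_subtype]
  let G1 : Finset G := Finset.univ.filter fun g => g ≠ 1
  -- double count
  have hdc : ∑ g ∈ G1, (m g).card = 28 * 26 := by
    have h1 := Finset.sum_card_bipartiteAbove_eq_sum_card_bipartiteBelow
      (s := (Finset.univ : Finset (Sylow 3 G))) (t := G1) (fun (Q : Sylow 3 G) (g : G) => g ∈ (Q : Subgroup G))
    have h2 : ∀ g ∈ G1, (Finset.bipartiteBelow (fun (Q : Sylow 3 G) (g : G) => g ∈ (Q : Subgroup G)) Finset.univ g) = m g := by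
      intro g _
      rfl
    rw [Finset.sum_congr rfl (fun g hg => congrArg Finset.card (h2 g hg))] at h1
    rw [← h1]
    have h3 : ∀ Q ∈ (Finset.univ : Finset (Sylow 3 G)),
        (Finset.bipartiteAbove (fun (Q : Sylow 3 G) (g : G) => g ∈ (Q : Subgroup G)) G1 Q).card = 26 := by
      intro Q _
      have h4 : (Finset.bipartiteAbove (fun (Q : Sylow 3 G) (g : G) => g ∈ (Q : Subgroup G)) G1 Q) =
          (Finset.univ.filter fun g => g ∈ (Q : Subgroup G)).erase 1 := by
        ext g
        simp only [Finset.bipartiteAbove, G1, Finset.mem_filter, Finset.mem_univ, true_and, Finset.mem_erase]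
      rw [h4, Finset.card_erase_of_mem (by simp [(Q : Subgroup G).one_mem])]
      have h5 : (Finset.univ.filter fun g => g ∈ (Q : Subgroup G)).card = 27 := by
        have := card_P3_756 hG h Q
        rw [Nat.card_eq_fintype_card, Fintype.card_subtype] at this
        rw [this]
        norm_num
      rw [h5]
    rw [Finset.sum_congr rfl h3, Finset.sum_const, Finset.card_univ, ← Nat.card_eq_fintype_card,
      card_sylow3_756 hG h]
    rfl
  let U : Finset G := G1.filter fun g => 1 ≤ (m g).card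
  let B : Finset G := G1.filter fun g => 2 ≤ (m g).card
  have hB : ∀ g ∈ B, ∃ P R : Sylow 3 G, P ≠ R ∧ g ∈ (P : Subgroup G) ∧ g ∈ (R : Subgroup G) := by
    intro g hg
    have h2 := (Finset.mem_filter.1 hg).2
    obtain ⟨P, hP, R, hR, hne⟩ := Finset.one_lt_card.1 (by omega : 1 < (m g).card)
    exact ⟨P, R, hne, (Finset.mem_filter.1 hP).2, (Finset.mem_filter.1 hR).2⟩
  have hG1 : ∀ g ∈ B, g ≠ 1 := fun g hg => (Finset.mem_filter.1 (Finset.mem_filter.1 hg).1).2
  -- bound on the sum
  have hsum : ∑ g ∈ G1, (m g).card ≤ U.card + 3 * B.card := by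
    have h1 : ∀ g ∈ G1, (m g).card ≤ (if 1 ≤ (m g).card then 1 else 0) + 3 * (if 2 ≤ (m g).card then 1 else 0) := by
      intro g hg
      by_cases h2 : 2 ≤ (m g).card
      · obtain ⟨P, R, hne, hgP, hgR⟩ := hB g (Finset.mem_filter.2 ⟨hg, h2⟩)
        have h3 := mult_le_756 hG h (Finset.mem_filter.1 hg).2 hne hgP hgR
        rw [← hmc] at h3
        have h4 : 1 ≤ (m g).card := by omega
        simp only [h4, h2, if_true]
        omega
      · by_cases h3 : 1 ≤ (m g).card
        · simp only [h3, h2, if_true, if_false]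
          omega
        · simp only [h3, h2, if_false]
          omega
    refine (Finset.sum_le_sum h1).trans ?_
    rw [Finset.sum_add_distrib, ← Finset.mul_sum, Finset.sum_boole, Finset.sum_boole]
    simp [U, B]
  -- bound on `B`
  have hBc : B.card ≤ 42 := by
    by_cases hBe : B = ∅
    · rw [hBe]; simp
    obtain ⟨g₀, hg₀⟩ := Finset.nonempty_iff_ne_empty.2 hBe
    obtain ⟨P₀, R₀, hne₀, hgP₀, hgR₀⟩ := hB g₀ hg₀
    obtain ⟨-, -, -, -, hn2, -⟩ := data_756 hG h (hG1 g₀ hg₀) hne₀ hgP₀ hgR₀
    have hex : ∀ g : G, ∃ T : Sylow 2 G, g ∈ B → normalizer ((T : Subgroup G) : Set G) = centralizer ({g} : Set G) := by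
      intro g
      by_cases hg : g ∈ B
      · obtain ⟨P, R, hne, hgP, hgR⟩ := hB g hg
        obtain ⟨-, -, -, -, -, T, hT⟩ := data_756 hG h (hG1 g hg) hne hgP hgR
        exact ⟨T, fun _ => hT⟩
      · obtain ⟨T⟩ : Nonempty (Sylow 2 G) := inferInstance
        exact ⟨T, fun h0 => absurd h0 hg⟩
    choose F hF using hex
    have hfib : ∀ T ∈ (Finset.univ : Finset (Sylow 2 G)), (B.filter fun g => F g = T).card ≤ 2 := by
      intro T _
      by_cases hfe : (B.filter fun g => F g = T) = ∅
      · rw [hfe]; simp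
      obtain ⟨g, hg⟩ := Finset.nonempty_iff_ne_empty.2 hfe
      obtain ⟨hgB, hgT⟩ := Finset.mem_filter.1 hg
      obtain ⟨P, R, hne, hgP, hgR⟩ := hB g hgB
      obtain ⟨hog, -⟩ := data_756 hG h (hG1 g hgB) hne hgP hgR
      have hsub : (B.filter fun g => F g = T) ⊆
          (Finset.univ.filter fun x => x ∈ zpowers g).erase 1 := by
        intro g' hg'
        obtain ⟨hg'B, hg'T⟩ := Finset.mem_filter.1 hg'
        obtain ⟨P', R', hne', hgP', hgR'⟩ := hB g' hg'B
        obtain ⟨hog', -⟩ := data_756 hG h (hG1 g' hg'B) hne' hgP' hgR'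
        have hcc : centralizer ({g'} : Set G) = centralizer ({g} : Set G) := by
          rw [← hF g' hg'B, ← hF g hgB, hg'T, hgT]
        have := mem_zpowers_of_centralizer_eq_756 hG h (hG1 g hgB) hne hgP hgR hog' hcc
        simp only [Finset.mem_erase, Finset.mem_filter, Finset.mem_univ, true_and]
        exact ⟨hG1 g' hg'B, this⟩
      refine (Finset.card_le_card hsub).trans ?_
      rw [Finset.card_erase_of_mem (by simp [Subgroup.one_mem])]
      have h5 : (Finset.univ.filter fun x => x ∈ zpowers g).card = 3 := by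
        have := Nat.card_zpowers g
        rw [Nat.card_eq_fintype_card, Fintype.card_subtype, hog] at this
        exact this
      rw [h5]
    have := Finset.card_le_mul_card_image_of_maps_to (s := B) (t := (Finset.univ : Finset (Sylow 2 G))) (f := F)
      (fun _ _ => Finset.mem_univ _) 2 hfib
    rw [Finset.card_univ, ← Nat.card_eq_fintype_card, hn2] at this
    omega
  -- elements of order 7
  have h7 : Nat.card {g : G // orderOf g = 7} = 216 := by
    rw [card_orderOf_eq_prime (p := 7) (fun P => card_P7_756 hG h P), card_sylow7_756 hG h]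
  let O7 : Finset G := Finset.univ.filter fun g => orderOf g = 7
  have hO7 : O7.card = 216 := by
    rw [Nat.card_eq_fintype_card, Fintype.card_subtype] at h7
    exact h7
  have hdisj : Disjoint U O7 := by
    rw [Finset.disjoint_left]
    intro g hgU hgO
    have h1 := (Finset.mem_filter.1 hgU).2
    obtain ⟨Q, hQ⟩ := Finset.card_pos.1 (by omega : 0 < (m g).card)
    have h2 : g ∈ (Q : Subgroup G) := (Finset.mem_filter.1 hQ).2
    have h3 := Subgroup.orderOf_dvd_natCard _ h2
    rw [card_P3_756 hG h Q, (Finset.mem_filter.1 hgO).2] at h3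
    revert h3
    norm_num
  have htot : (U ∪ O7).card ≤ 756 := by
    rw [← h, Nat.card_eq_fintype_card]
    exact Finset.card_le_univ _
  rw [Finset.card_union_of_disjoint hdisj, hO7] at htot
  omega

end o756

theorem card_ne_756 [IsSimpleGroup G] (hG : ¬ IsMulCommutative G) : Nat.card G ≠ 756 :=
  fun h => false_756 hG h

end Cfsg.Agent.H87Ord
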