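import Mathlib

/-!
# Sign of permutations of order dividing four
-/

set_option autoImplicit false

namespace Cfsg.Agent.H87Ord

open Equiv.Perm

variable {X : Type*} [Fintype X] [DecidableEq X]

/-- A cycle factor of length two consists of fixed points of the square. -/
theorem sq_fixed_of_cycle_factor (σ : Equiv.Perm X) {c : Equiv.Perm X} (hc : c ∈ σ.cycleFactorsFinset)
    (h2 : c.support.card = 2) {x : X} (hx : x ∈ c.support) : σ (σ x) = x := by
  obtain ⟨h1, h3⟩ := Equiv.Perm.mem_cycleFactorsFinset_iff.1 hc
  have h4 : σ x = c x := (h3 x hx).symm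
  have h5 : σ (c x) = c (c x) := (h3 (c x) (Equiv.Perm.apply_mem_support.2 hx)).symm
  have h6 : orderOf c = 2 := by rw [h1.orderOf, h2]
  have h7 : c ^ 2 = 1 := by rw [← h6]; exact pow_orderOf_eq_one c
  have h8 : c (c x) = x := by
    have := congrArg (fun f : Equiv.Perm X => f x) h7
    simpa [pow_two] using this
  rw [h4, h5, h8]

/-- The members of the cycle type of a permutation with fourth power one. -/
theorem mem_cycleType_of_pow_four (σ : Equiv.Perm X) (h4 : σ ^ 4 = 1) {n : ℕ} (hn : n ∈ σ.cycleType) :
    n = 2 ∨ n = 4 := by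
  have h1 : n ∣ orderOf σ := Equiv.Perm.dvd_of_mem_cycleType hn
  have h2 : orderOf σ ∣ 4 := orderOf_dvd_of_pow_eq_one h4
  have h3 : n ∣ 4 := dvd_trans h1 h2
  have h5 : 2 ≤ n := Equiv.Perm.two_le_of_mem_cycleType hn
  have h6 : n ≤ 4 := Nat.le_of_dvd (by norm_num) h3
  interval_cases n
  · exact Or.inl rfl
  · revert h3; decide
  · exact Or.inr rfl

/-- A permutation with fourth power one whose square has no fixed point moves a number of points
divisible by four. -/
theorem four_dvd_card_of_sq_free (σ : Equiv.Perm X) (h4 : σ ^ 4 = 1) (h2 : ∀ x, σ (σ x) ≠ x) :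
    4 ∣ Fintype.card X := by
  have hsupp : σ.support = Finset.univ := by
    ext x
    simp only [Equiv.Perm.mem_support, Finset.mem_univ, iff_true]
    intro hx
    apply h2 x
    rw [hx, hx]
  have hsum := Equiv.Perm.sum_cycleType σ
  rw [hsupp, Finset.card_univ] at hsum
  rw [← hsum]
  apply Multiset.dvd_sum
  intro n hn
  rcases mem_cycleType_of_pow_four σ h4 hn with rfl | rfl
  · exfalso
    have hmem : (2 : ℕ) ∈ σ.cycleFactorsFinset.1.map (Finset.card ∘ Equiv.Perm.support) := by
      rw [← Equiv.Perm.cycleType_def]; exact hn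
    obtain ⟨c, hc, hc2⟩ := Multiset.mem_map.1 hmem
    have hc' : c ∈ σ.cycleFactorsFinset := hc
    have hc3 : c.support.card = 2 := hc2
    obtain ⟨x, hx⟩ : c.support.Nonempty := Finset.card_pos.1 (by omega)
    exact h2 x (sq_fixed_of_cycle_factor σ hc' hc3 hx)
  · exact dvd_rfl

/-- Numerics of a multiset with members two and four. -/
theorem multiset_two_four (m : Multiset ℕ) (h : ∀ n ∈ m, n = 2 ∨ n = 4) :
    m.sum = 2 * m.count 2 + 4 * m.count 4 ∧ Multiset.card m = m.count 2 + m.count 4 := by
  induction m using Multiset.induction_on with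
  | empty => simp
  | cons a s ih =>
    have hs := ih (fun n hn => h n (Multiset.mem_cons_of_mem hn))
    rcases h a (Multiset.mem_cons_self a s) with rfl | rfl
    · simp only [Multiset.sum_cons, Multiset.count_cons_self, Multiset.card_cons]
      rw [Multiset.count_cons_of_ne (by norm_num : (4 : ℕ) ≠ 2)]
      omega
    · simp only [Multiset.sum_cons, Multiset.count_cons_self, Multiset.card_cons]
      rw [Multiset.count_cons_of_ne (by norm_num : (2 : ℕ) ≠ 4)]
      omega

/-- A permutation of ten points with no fixed points, whose square has few fixed points and whose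
fourth power is trivial, is odd. -/
theorem sign_eq_neg_one_of_ten (σ : Equiv.Perm X) (hX : Fintype.card X = 10) (h4 : σ ^ 4 = 1)
    (h1 : ∀ x, σ x ≠ x) (h2 : (Finset.univ.filter fun x => σ (σ x) = x).card ≤ 3) :
    Equiv.Perm.sign σ = -1 := by
  have hsupp : σ.support = Finset.univ := by
    ext x
    simp [Equiv.Perm.mem_support, h1 x]
  have hsum := Equiv.Perm.sum_cycleType σ
  rw [hsupp, Finset.card_univ, hX] at hsum
  obtain ⟨hs, hc⟩ := multiset_two_four σ.cycleType (fun n hn => mem_cycleType_of_pow_four σ h4 hn)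
  have hle : σ.cycleType.count 2 ≤ 1 := by
    by_contra hcon
    rw [Equiv.Perm.cycleType_def, Multiset.count_map] at hcon
    have h3 : 1 < (σ.cycleFactorsFinset.filter fun c => 2 = (Finset.card ∘ Equiv.Perm.support) c).card := by
      exact lt_of_not_ge hcon
    obtain ⟨c, hc1, d, hd1, hcd⟩ := Finset.one_lt_card.1 h3
    obtain ⟨hc2, hc3⟩ := Finset.mem_filter.1 hc1
    obtain ⟨hd2, hd3⟩ := Finset.mem_filter.1 hd1
    have hc4 : c.support.card = 2 := hc3.symm
    have hd4 : d.support.card = 2 := hd3.symm
    have hdisj : Disjoint c.support d.support :=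
      Equiv.Perm.disjoint_iff_disjoint_support.1
        (Equiv.Perm.cycleFactorsFinset_pairwise_disjoint σ hc2 hd2 hcd)
    have hsub : c.support ∪ d.support ⊆ Finset.univ.filter fun x => σ (σ x) = x := by
      intro x hx
      refine Finset.mem_filter.2 ⟨Finset.mem_univ _, ?_⟩
      rcases Finset.mem_union.1 hx with hx | hx
      · exact sq_fixed_of_cycle_factor σ hc2 hc4 hx
      · exact sq_fixed_of_cycle_factor σ hd2 hd4 hx
    have := Finset.card_le_card hsub
    rw [Finset.card_union_of_disjoint hdisj, hc4, hd4] at this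
    omega
  rw [Equiv.Perm.sign_of_cycleType]
  have hcard : Multiset.card σ.cycleType = 3 := by omega
  rw [hsum, hcard]
  norm_num

end Cfsg.Agent.H87Ord
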