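import Mathlib
import Cfsg.Agent.H87Ord.Core

/-!
# A computable sieve for orders of non-abelian simple groups
-/

set_option autoImplicit false

namespace Cfsg.Agent.H87Ord

open Subgroup Cfsg.Agent.Lib.SmallGroups2 Cfsg.Agent.Lib.SmallGroups3 Cfsg.Agent.Lib.TwoLocal

/-- Primality test by trial division. -/
def isP (p : ℕ) : Bool :=
  decide (2 ≤ p) && (List.range' 2 (p - 2)).all (fun d => p % d != 0)

theorem isP_prime {p : ℕ} (h : isP p = true) : p.Prime := by
  rw [isP, Bool.and_eq_true, decide_eq_true_eq, List.all_eq_true] at h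
  obtain ⟨h2, h3⟩ := h
  rw [Nat.prime_def]
  refine ⟨by omega, fun m hm => ?_⟩
  by_contra hc
  push Not at hc
  have hm0 : m ≠ 0 := by
    rintro rfl
    simp at hm
    omega
  have hle : m ≤ p := Nat.le_of_dvd (by omega) hm
  have hlt : m < p := lt_of_le_of_ne hle hc.2
  have hm2 : 2 ≤ m := by have := hc.1; omega
  have hmem : m ∈ List.range' 2 (p - 2) := by
    rw [List.mem_range'_1]
    omega
  have := h3 m hmem
  simp [Nat.mod_eq_zero_of_dvd hm] at this

/-- The list of nonzero divisors. -/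
def divL (m : ℕ) : List ℕ := (List.range (m + 1)).filter (fun d => d != 0 && m % d == 0)

theorem mem_divL {m d : ℕ} (hm : m ≠ 0) (hd : d ∣ m) : d ∈ divL m := by
  have hd0 : d ≠ 0 := by
    rintro rfl
    exact hm (Nat.eq_zero_of_zero_dvd hd)
  rw [divL, List.mem_filter, List.mem_range]
  refine ⟨Nat.lt_succ_of_le (Nat.le_of_dvd (Nat.pos_of_ne_zero hm) hd), ?_⟩
  simp [hd0, Nat.mod_eq_zero_of_dvd hd]

theorem dvd_of_mem_divL {m d : ℕ} (hd : d ∈ divL m) : d ∣ m := by
  rw [divL, List.mem_filter] at hd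
  simp only [Bool.and_eq_true, bne_iff_ne, beq_iff_eq] at hd
  exact Nat.dvd_of_mod_eq_zero hd.2.2

/-- `d!` is not a multiple of `2 n`. -/
def embFail (n d : ℕ) : Bool := decide (d < 40) && (d.factorial % (2 * n) != 0)

theorem not_embFail {n d : ℕ} (h : 2 * n ∣ d.factorial) : embFail n d = false := by
  simp [embFail, Nat.mod_eq_zero_of_dvd h]

def tameEmpty (n p m : ℕ) : Bool :=
  (divL m).all (fun i => i == 1 || embFail n i ||
    (divL (m / i)).all (fun d => d % p != 1 % p || d == 1))

theorem tameEmpty_sound {n p m : ℕ} (h : tameEmpty n p m = true) (hm0 : m ≠ 0) :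
    ¬ (tameCandidates n p m).Nonempty := by
  rintro ⟨i, hi⟩
  rw [tameCandidates, Finset.mem_filter, Nat.mem_divisors] at hi
  obtain ⟨⟨hi1, -⟩, hi2, hi3, d, hd⟩ := hi
  rw [Finset.mem_filter, Nat.mem_divisors] at hd
  obtain ⟨⟨hd1, hd0⟩, hd2, hd3⟩ := hd
  rw [tameEmpty, List.all_eq_true] at h
  have h1 := h i (mem_divL hm0 hi1)
  simp only [Bool.or_eq_true, beq_iff_eq, List.all_eq_true, bne_iff_ne] at h1
  rcases h1 with (h1 | h1) | h1
  · exact hi2 h1
  · rw [not_embFail hi3] at h1
    exact absurd h1 (by simp)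
  · rcases h1 d (mem_divL hd0 hd1) with h4 | h4
    · exact h4 hd2
    · exact hd3 h4

/-- Failure of the commuting element test. -/
def commFail (p d k q : ℕ) : Bool :=
  (divL (p - 1)).all (fun e => k % e != 0 || (k / e) % q == 0) &&
    (List.range d).all (fun f => f % p != 1 || f % q != d % q || (q == 2 && f % 4 != d % 4))

/-- Why `d` cannot be the number of Sylow `p`-subgroups. -/
def bad (n p a m d : ℕ) : Bool :=
  embFail n d ||
  (a == 1 && (Nat.gcd (m / d) (p - 1) == 1 || (p != 2 && d == p + 1 && (p - 1) % (2 * (m / d)) != 0) ||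
    [2, 3, 5, 7, 11, 13].any (fun q => (m / d) % q == 0 && commFail p d (m / d) q))) ||
  (a == 2 && m / d == 1) ||
  (decide (2 ≤ a) && (d - 1) % (p * p) != 0 && tameEmpty n p m)

theorem bad_sound {G : Type*} [Group G] [Finite G] [IsSimpleGroup G] (hG : ¬ IsMulCommutative G)
    {p a m : ℕ} [Fact p.Prime] (h : Nat.card G = p ^ a * m) (hm : ¬ p ∣ m) (ha : a ≠ 0)
    (hb : bad (Nat.card G) p a m (Nat.card (Sylow p G)) = true) : False := by
  have hp : p.Prime := Fact.out
  have hm0 : m ≠ 0 := by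
    rintro rfl
    exact hm (dvd_zero p)
  have hpG : p ∣ Nat.card G := by
    rw [h]
    exact Dvd.dvd.mul_right (dvd_pow_self p ha) m
  set d := Nat.card (Sylow p G) with hd
  have hdm : d ∣ m := card_sylow_dvd h hm
  have hmd : d * (m / d) = m := Nat.mul_div_cancel' hdm
  rw [bad] at hb
  simp only [Bool.or_eq_true, Bool.and_eq_true, beq_iff_eq, bne_iff_ne, decide_eq_true_eq,
    List.any_eq_true] at hb
  rcases hb with ((hb | hb) | hb) | hb
  · rw [not_embFail (two_mul_card_dvd_factorial_card_sylow hG hpG)] at hb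
    exact absurd hb (by simp)
  · obtain ⟨rfl, hb⟩ := hb
    have h1 : Nat.card G = p * m := by rw [h, pow_one]
    rcases hb with (hb | hb) | hb
    · have := card_sylow_mem_candidates hG h1 hm
      rw [sylowCandidates, Finset.mem_filter] at this
      exact this.2.2.2 hb
    · obtain ⟨⟨hp2, hdp⟩, hb⟩ := hb
      have hk : (p + 1) * (m / d) = m := by rw [← hdp]; exact hmd
      have := succ_test hG hp2 h1 hm hdp hk
      exact hb (Nat.mod_eq_zero_of_dvd this)
    · obtain ⟨q, hq, hq1, hq2⟩ := hb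
      have hqp : q.Prime := by
        simp only [List.mem_cons, List.not_mem_nil, or_false] at hq
        rcases hq with rfl | rfl | rfl | rfl | rfl | rfl <;> norm_num
      haveI : Fact q.Prime := ⟨hqp⟩
      rw [commFail] at hq2
      simp only [Bool.and_eq_true, List.all_eq_true, Bool.or_eq_true, bne_iff_ne, beq_iff_eq] at hq2
      obtain ⟨h3, h4⟩ := hq2
      have hk0 : m / d ≠ 0 := by
        intro h0
        rw [h0, mul_zero] at hmd
        exact hm0 hmd.symm
      refine comm_test (p := p) (q := q) hG h1 hm rfl hmd ?_ ?_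
      · intro e he1 he2
        have hne : p - 1 ≠ 0 := by have := hp.two_le; omega
        rcases h3 e (mem_divL hne he1) with h5 | h5
        · exact absurd (Nat.mod_eq_zero_of_dvd he2) h5
        · exact Nat.dvd_of_mod_eq_zero h5
      · intro f hf h5 h6 h7
        rcases h4 f (List.mem_range.2 hf) with (h8 | h8) | h8
        · exact h8 h5
        · exact h8 h6
        · exact h8.2 (h7 h8.1)
  · obtain ⟨rfl, hk⟩ := hb
    -- the normalizer of `P` is `P`
    obtain ⟨P⟩ : Nonempty (Sylow p G) := inferInstance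
    have hP : Nat.card (P : Subgroup G) = p ^ 2 := sylow_card_of_card_eq h hm P
    have hN := card_normalizer_mul_card_sylow P
    have hdm2 : d = m := by
      rw [hk, mul_one] at hmd
      exact hmd
    rw [← hd, hdm2, h] at hN
    have hN2 : Nat.card (normalizer ((P : Subgroup G) : Set G)) = p ^ 2 :=
      Nat.eq_of_mul_eq_mul_right (Nat.pos_of_ne_zero hm0) hN
    have hPN : (P : Subgroup G) = normalizer ((P : Subgroup G) : Set G) :=
      Subgroup.eq_of_le_of_card_ge le_normalizer (by rw [hN2, hP])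
    apply not_normalizer_le_centralizer hG hpG P
    rw [← hPN]
    letI := IsPGroup.commGroupOfCardEqPrimeSq hP
    intro x hx
    rw [mem_centralizer_iff]
    intro y hy
    exact congrArg Subtype.val (mul_comm (⟨y, hy⟩ : (P : Subgroup G)) ⟨x, hx⟩)
  · obtain ⟨⟨ha2, hd1⟩, ht⟩ := hb
    refine tameEmpty_sound ht hm0 (sylow_index_p_test hG h hm ha2 ?_)
    intro hmod
    apply hd1
    have hd0 : 1 ≤ d := Nat.card_pos
    have : p * p ∣ d - 1 := by
      rw [← pow_two]
      exact (Nat.modEq_iff_dvd' hd0).1 hmod.symm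
    exact Nat.mod_eq_zero_of_dvd this

/-- Test at a prime and an exponent. -/
def testAt (n p a : ℕ) : Bool :=
  n % p ^ a == 0 && n / p ^ a % p != 0 &&
    (divL (n / p ^ a)).all (fun d => d % p != 1 % p || d == 1 || bad n p a (n / p ^ a) d)

theorem testAt_sound {G : Type*} [Group G] [Finite G] [IsSimpleGroup G] (hG : ¬ IsMulCommutative G)
    {p a : ℕ} (hp : p.Prime) (ha : a ≠ 0) (ht : testAt (Nat.card G) p a = true) : False := by
  haveI : Fact p.Prime := ⟨hp⟩
  rw [testAt] at ht
  simp only [Bool.and_eq_true, beq_iff_eq, bne_iff_ne, List.all_eq_true, Bool.or_eq_true] at ht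
  obtain ⟨⟨h1, h2⟩, h3⟩ := ht
  set m := Nat.card G / p ^ a with hmdef
  have h : Nat.card G = p ^ a * m := (Nat.mul_div_cancel' (Nat.dvd_of_mod_eq_zero h1)).symm
  have hm : ¬ p ∣ m := fun hd => h2 (Nat.mod_eq_zero_of_dvd hd)
  have hm0 : m ≠ 0 := by
    intro h0
    rw [h0] at hm
    exact hm (dvd_zero p)
  have hdm : Nat.card (Sylow p G) ∣ m := card_sylow_dvd h hm
  rcases h3 _ (mem_divL hm0 hdm) with (h4 | h4) | h4
  · exact h4 card_sylow_mod
  · have hpG : p ∣ Nat.card G := by
      rw [h]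
      exact Dvd.dvd.mul_right (dvd_pow_self p ha) m
    exact card_sylow_ne_one hG hpG h4
  · exact bad_sound hG h hm ha h4

/-- Removing the factors `p`. -/
def stripF : ℕ → ℕ → ℕ → ℕ
  | 0, _, n => n
  | f + 1, p, n => if n % p == 0 then stripF f p (n / p) else n

theorem stripF_spec (f p n : ℕ) : ∃ k, n = p ^ k * stripF f p n := by
  induction f generalizing n with
  | zero => exact ⟨0, by simp [stripF]⟩
  | succ f ih =>
    rw [stripF]
    split_ifs with h
    · obtain ⟨k, hk⟩ := ih (n / p)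
      refine ⟨k + 1, ?_⟩
      have h1 : n = p * (n / p) := (Nat.mul_div_cancel' (Nat.dvd_of_mod_eq_zero (by simpa using h))).symm
      calc n = p * (n / p) := h1
        _ = p * (p ^ k * stripF f p (n / p)) := by rw [← hk]
        _ = _ := by ring
    · exact ⟨0, by simp⟩

def burnAt (n p : ℕ) : Bool :=
  let m := stripF 14 p n
  m == 1 || (divL m).any (fun q => isP q && stripF 14 q m == 1)

theorem burnAt_sound {G : Type*} [Group G] [Finite G] [IsSimpleGroup G] (hG : ¬ IsMulCommutative G)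
    {p : ℕ} (hp : p.Prime) (ht : burnAt (Nat.card G) p = true) : False := by
  have key : ∀ q : ℕ, q.Prime → (∃ a b, Nat.card G = p ^ a * q ^ b) → False := by
    intro q hq hab
    have hs := Cfsg.Agent.Lib.BurnsidePQ.isSolvable_of_card_eq p q hp hq (Nat.card G) G rfl hab
    apply hG
    have := (IsSimpleGroup.comm_iff_isSolvable (G := G)).2 hs
    exact ⟨⟨fun a b => this a b⟩⟩
  rw [burnAt] at ht
  simp only [Bool.or_eq_true, beq_iff_eq, List.any_eq_true, Bool.and_eq_true] at ht
  obtain ⟨k, hk⟩ := stripF_spec 14 p (Nat.card G)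
  rcases ht with h1 | ⟨q, -, hq, hq2⟩
  · rw [h1, mul_one] at hk
    exact key p hp ⟨k, 0, by rw [hk]; simp⟩
  · obtain ⟨l, hl⟩ := stripF_spec 14 q (stripF 14 p (Nat.card G))
    rw [hq2, mul_one] at hl
    exact key q (isP_prime hq) ⟨k, l, by rw [← hl]; exact hk⟩

def bigAt (n p : ℕ) : Bool :=
  n % p == 0 && decide (n < p ^ 3) && Nat.gcd 2 (p - 1) * n != (p + 1) * p * (p - 1) &&
    Nat.gcd 2 (p - 1 - 1) * n != (p - 1 + 1) * (p - 1) * (p - 1 - 1)

theorem bigAt_sound {G : Type*} [Group G] [Finite G] [IsSimpleGroup G] (hG : ¬ IsMulCommutative G)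
    {p : ℕ} (hp : p.Prime) (ht : bigAt (Nat.card G) p = true) : False := by
  rw [bigAt] at ht
  simp only [Bool.and_eq_true, beq_iff_eq, bne_iff_ne, decide_eq_true_eq] at ht
  obtain ⟨⟨⟨h1, h2⟩, h3⟩, h4⟩ := ht
  exact big_prime_test hG hp (Nat.dvd_of_mod_eq_zero h1) h2 h3 h4

/-- The sieve. -/
def sieve (n : ℕ) : Bool :=
  isP n || (divL n).any (fun p => isP p && (burnAt n p || bigAt n p ||
    (List.range' 1 13).any (fun a => testAt n p a)))

theorem sieve_sound {G : Type*} [Group G] [Finite G] [IsSimpleGroup G] (hG : ¬ IsMulCommutative G)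
    (h : sieve (Nat.card G) = true) : False := by
  rw [sieve] at h
  simp only [Bool.or_eq_true, List.any_eq_true, Bool.and_eq_true] at h
  rcases h with h | ⟨p, -, hp, ((h | h) | ⟨a, ha, h⟩)⟩
  · apply hG
    have hpr := isP_prime h
    haveI : Fact (Nat.card G).Prime := ⟨hpr⟩
    haveI hc : IsCyclic G := isCyclic_of_prime_card (α := G) rfl
    exact ⟨⟨fun a b => by
      obtain ⟨g, hg⟩ := hc.exists_generator
      obtain ⟨i, rfl⟩ := Subgroup.mem_zpowers_iff.1 (hg a)
      obtain ⟨j, rfl⟩ := Subgroup.mem_zpowers_iff.1 (hg b)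
      rw [← zpow_add, ← zpow_add, add_comm]⟩⟩
  · exact burnAt_sound hG (isP_prime hp) h
  · exact bigAt_sound hG (isP_prime hp) h
  · have ha0 : a ≠ 0 := by
      rw [List.mem_range'_1] at ha
      omega
    exact testAt_sound hG (isP_prime hp) ha0 h

end Cfsg.Agent.H87Ord
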